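import Cfsg.Agent.Lib.Geometric.TensorMaps
import Cfsg.Agent.Lib.Geometric.SympAlgebra
import Cfsg.Agent.Lib.Geometric.Orth.Values
import Cfsg.Agent.Lib.Geometric.Orth.TensorThree

/-!
A symplectic form that is the tensor product of a symplectic form and a symmetric form in dimension
three, in odd characteristic: contractions, frames, reflections and factorwise isometries.
-/

set_option autoImplicit false
set_option linter.unusedSectionVars false

namespace CfsgLib.Geometric.SympThree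

open Matrix Tensor

variable {ι : Type} [Fintype ι] [DecidableEq ι] {F : Type*} [Field F]
variable {f : (ι → F) → (ι → F) → F} {n : ℕ} {e : ι ≃ Fin n × Fin 3} {P : GL ι F}
  {f₁ : (Fin n → F) → (Fin n → F) → F} {f₂ : (Fin 3 → F) → (Fin 3 → F) → F}

/-- `f` is the tensor product of `f₁` and `f₂`. -/
structure Data (f : (ι → F) → (ι → F) → F) (e : ι ≃ Fin n × Fin 3) (P : GL ι F)
    (f₁ : (Fin n → F) → (Fin n → F) → F) (f₂ : (Fin 3 → F) → (Fin 3 → F) → F) : Prop where
  symp : Cfsg.Geo.IsSymplecticForm f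
  symp₁ : Cfsg.Geo.IsSymplecticForm f₁
  symm₂ : Cfsg.Geo.IsSymmetricForm f₂
  two : (2 : F) ≠ 0
  four : 4 ≤ n
  many : ∃ s : F, s ≠ 0 ∧ s * s ≠ 1
  form : ∀ x x' y y', f (pt e P x y) (pt e P x' y') = f₁ x x' * f₂ y y'

namespace Data

variable (hT : Data f e P f₁ f₂)
include hT

lemma zero_right₂ (v : Fin 3 → F) : f₂ v 0 = 0 := by
  simpa using hT.symm₂.bilinear.smul_right 0 v 0

lemma zero_left₂ (v : Fin 3 → F) : f₂ 0 v = 0 := by
  simpa using hT.symm₂.bilinear.smul_left 0 0 v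

omit hT in
/-- The linear map `v ↦ f₂(·, v)`. -/
def fr (hT : Data f e P f₁ f₂) : (Fin 3 → F) →ₗ[F] Module.Dual F (Fin 3 → F) :=
  LinearMap.mk₂ F (fun v x => f₂ x v) (fun v v' x => hT.symm₂.bilinear.add_right x v v')
    (fun c v x => hT.symm₂.bilinear.smul_right c x v)
    (fun v x x' => hT.symm₂.bilinear.add_left x x' v)
    (fun c v x => hT.symm₂.bilinear.smul_left c x v)

@[simp] lemma fr_apply (v x : Fin 3 → F) : hT.fr v x = f₂ x v := rfl

lemma exists_eq_fr (φ : Module.Dual F (Fin 3 → F)) : ∃ v, hT.fr v = φ := by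
  have hinj : Function.Injective hT.fr := by
    rw [injective_iff_map_eq_zero]
    intro v hv
    by_contra h
    obtain ⟨x, hx⟩ := (hT.symm₂.nondegenerate v h).1
    exact hx (by simpa using congrArg (fun φ : Module.Dual F (Fin 3 → F) => φ x) hv)
  exact (LinearMap.injective_iff_surjective_of_finrank_eq_finrank
    Subspace.dual_finrank_eq.symm).mp hinj φ

lemma sub_left₂ (x x' y : Fin 3 → F) : f₂ (x - x') y = f₂ x y - f₂ x' y := by
  simpa using (hT.fr y).map_sub x x'

lemma sub_right₂ (x y y' : Fin 3 → F) : f₂ x (y - y') = f₂ x y - f₂ x y' := by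
  rw [hT.symm₂.symm, hT.sub_left₂, hT.symm₂.symm y, hT.symm₂.symm y']

lemma ext₂ {p r : Fin 3 → F} (h : ∀ b, f₂ p b = f₂ r b) : p = r := by
  by_contra hne
  obtain ⟨b, hb⟩ := (hT.symm₂.nondegenerate (p - r) (sub_ne_zero.mpr hne)).2
  exact hb (by rw [hT.sub_left₂, h, sub_self])

lemma ext₁ {p r : Fin n → F} (h : ∀ b, f₁ p b = f₁ r b) : p = r := by
  by_contra hne
  obtain ⟨b, hb⟩ := (hT.symp₁.nondegenerate (p - r) (sub_ne_zero.mpr hne)).2
  exact hb (by rw [Symp.sub_left hT.symp₁, h, sub_self])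

omit hT in
/-- Contraction with `f₂(·, v)`. -/
def cc (hT : Data f e P f₁ f₂) (v : Fin 3 → F) : (ι → F) →ₗ[F] (Fin n → F) :=
  con e P (hT.fr v)

@[simp] lemma cc_pt (v : Fin 3 → F) (a : Fin n → F) (y : Fin 3 → F) :
    hT.cc v (pt e P a y) = f₂ y v • a := by simp [cc]

omit hT in
/-- Contraction with `f₁(·, u)`. -/
def dd (hT : Data f e P f₁ f₂) (u : Fin n → F) : (ι → F) →ₗ[F] (Fin 3 → F) :=
  conr e P (Symp.fl hT.symp₁ u)

@[simp] lemma dd_pt (u : Fin n → F) (a : Fin n → F) (y : Fin 3 → F) :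
    hT.dd u (pt e P a y) = f₁ a u • y := by simp [dd]

/-- Pairing with a pure tensor. -/
lemma f_pt (x : ι → F) (u : Fin n → F) (y : Fin 3 → F) :
    f x (pt e P u y) = f₁ (hT.cc y x) u := by
  have h : Symp.fl hT.symp (pt e P u y) = (Symp.fl hT.symp₁ u).comp (hT.cc y) :=
    ext_pt e P fun a z => by
      simp only [Symp.fl_apply, LinearMap.comp_apply, cc_pt, hT.form,
        hT.symp₁.bilinear.smul_left]
      ring
  simpa using LinearMap.congr_fun h x

/-- Pairing with a pure tensor, contracted at the first factor. -/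
lemma f_pt' (x : ι → F) (u : Fin n → F) (y : Fin 3 → F) :
    f x (pt e P u y) = f₂ (hT.dd u x) y := by
  have h : Symp.fl hT.symp (pt e P u y) = (hT.fr y).comp (hT.dd u) :=
    ext_pt e P fun a z => by
      simp only [Symp.fl_apply, LinearMap.comp_apply, dd_pt, fr_apply, hT.form,
        hT.symm₂.bilinear.smul_left]
  simpa using LinearMap.congr_fun h x

lemma kron_isom {a : GL (Fin n) F} {b : GL (Fin 3) F} (ha : a ∈ isom f₁) (hb : b ∈ isom f₂) :
    kron e P a b ∈ isom f := by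
  let B : (ι → F) →ₗ[F] (ι → F) →ₗ[F] F := (Symp.fl hT.symp).flip
  have h : B.compl₁₂ (apEquiv (kron e P a b)).toLinearMap (apEquiv (kron e P a b)).toLinearMap = B :=
    ext_pt e P fun u z => ext_pt e P fun u' z' => by
      simp only [B, LinearMap.compl₁₂_apply, LinearEquiv.coe_coe, apEquiv_apply, ap_kron,
        LinearMap.flip_apply, Symp.fl_apply, hT.form, mem_isom_iff.mp ha u u',
        mem_isom_iff.mp hb z z']
  exact fun x y => LinearMap.congr_fun (LinearMap.congr_fun h x) y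

lemma kron_mem_H {a : GL (Fin n) F} {b : GL (Fin 3) F} (ha : a ∈ isom f₁) (hb : b ∈ isom f₂) :
    kron e P a b ∈ Cfsg.Geo.tensorProductSubgroup n 3 e P ⊓ isom f :=
  ⟨kron_mem e P a b, hT.kron_isom ha hb⟩

/-- A transvection of the first factor. -/
lemma ap_kron_T (u : Fin n → F) (c : F) (x : ι → F) :
    ap (kron e P (Symp.T hT.symp₁ u c) (1 : GL (Fin 3) F)) x = x + c • pt e P u (hT.dd u x) := by
  have h : (apEquiv (kron e P (Symp.T hT.symp₁ u c) (1 : GL (Fin 3) F))).toLinearMap =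
      LinearMap.id + c • (ptr e P u).comp (hT.dd u) :=
    ext_pt e P fun a y => by
      simp only [LinearEquiv.coe_coe, apEquiv_apply, ap_kron, ap_one, Symp.ap_T,
        LinearMap.add_apply, LinearMap.id_apply, LinearMap.smul_apply, LinearMap.comp_apply, dd_pt,
        ptr_apply, pt_add_left, pt_smul_left, pt_smul_right, smul_smul]
  simpa using LinearMap.congr_fun h x

/-- A vector killed by the contractions at the orthogonal of `a` lies in `a ⊗ F^3`. -/
lemma mem_range_of_dd {a : Fin n → F} (ha : a ≠ 0) {x : ι → F}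
    (h : ∀ d, f₁ a d = 0 → hT.dd d x = 0) : ∃ w, pt e P a w = x := by
  obtain ⟨p, hp⟩ := (hT.symp₁.nondegenerate a ha).2
  set p' := (f₁ a p)⁻¹ • p
  have hp' : f₁ a p' = 1 := by rw [hT.symp₁.bilinear.smul_right, inv_mul_cancel₀ hp]
  refine ⟨hT.dd p' x, ?_⟩
  by_contra hne
  obtain ⟨y, hy⟩ := (hT.symp.nondegenerate _ (sub_ne_zero.mpr hne)).2
  have hl : (Symp.fl hT.symp).flip (pt e P a (hT.dd p' x) - x) = 0 := ext_pt e P fun d z => by
    rw [LinearMap.flip_apply, Symp.fl_apply, LinearMap.zero_apply, hT.f_pt', map_sub, dd_pt]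
    have hd : f₁ a (d - f₁ a d • p') = 0 := by
      rw [Symp.sub_right hT.symp₁, hT.symp₁.bilinear.smul_right, hp', mul_one, sub_self]
    have h0 := h _ hd
    have e1 : hT.dd d x = f₁ a d • hT.dd p' x := by
      have : hT.dd (d - f₁ a d • p') x = hT.dd d x - f₁ a d • hT.dd p' x := by
        simp only [dd, map_sub, map_smul, conr]
        rfl
      rw [this, sub_eq_zero] at h0
      exact h0
    rw [e1, sub_self, hT.zero_left₂]
  exact hy (LinearMap.congr_fun hl y)

/-- The quadratic values of a combination. -/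
lemma q_add_smul (x y : Fin 3 → F) (t : F) :
    f₂ (x + t • y) (x + t • y) = f₂ x x + 2 * t * f₂ x y + t * t * f₂ y y := by
  rw [hT.symm₂.bilinear.add_left, hT.symm₂.bilinear.add_right, hT.symm₂.bilinear.add_right,
    hT.symm₂.bilinear.smul_left, hT.symm₂.bilinear.smul_right, hT.symm₂.bilinear.smul_right,
    hT.symm₂.bilinear.smul_left, hT.symm₂.symm y x]
  ring

lemma exists_aniso : ∃ v, f₂ v v ≠ 0 := by
  by_contra h
  push Not at h
  have h0 : (Pi.single 0 1 : Fin 3 → F) ≠ 0 := fun h0 => by simpa using congrFun h0 0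
  obtain ⟨y, hy⟩ := (hT.symm₂.nondegenerate _ h0).2
  have := hT.q_add_smul (Pi.single 0 1) y 1
  rw [h, h, h] at this
  simp [hT.two] at this
  exact hy this

/-- Three pairwise orthogonal vectors of non-zero value span. -/
lemma span_of_orth {v p q : Fin 3 → F} (hv : f₂ v v ≠ 0) (hp : f₂ p p ≠ 0) (hq : f₂ q q ≠ 0)
    (hpv : f₂ p v = 0) (hqv : f₂ q v = 0) (hqp : f₂ q p = 0) (x : Fin 3 → F) :
    x = (f₂ x v / f₂ v v) • v + (f₂ x p / f₂ p p) • p + (f₂ x q / f₂ q q) • q := by
  have hli : LinearIndependent F ![v, p, q] := by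
    rw [Fintype.linearIndependent_iff]
    intro g hg
    simp only [Fin.sum_univ_three, cons_val_zero, cons_val_one, cons_val_two, head_cons,
      tail_cons] at hg
    have e0 := congrArg (fun w => f₂ w v) hg
    have e1 := congrArg (fun w => f₂ w p) hg
    have e2 := congrArg (fun w => f₂ w q) hg
    simp [hT.symm₂.bilinear.add_left, hT.symm₂.bilinear.smul_left, hT.zero_left₂, hpv, hqv, hqp,
      hT.symm₂.symm v p, hT.symm₂.symm v q, hT.symm₂.symm p q, hv, hp, hq] at e0 e1 e2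
    intro i
    fin_cases i
    exacts [e0, e1, e2]
  have hx : x ∈ Submodule.span F (Set.range ![v, p, q]) :=
    hli.span_eq_top_of_card_eq_finrank (by simp) ▸ Submodule.mem_top
  obtain ⟨c, hc⟩ := (Submodule.mem_span_range_iff_exists_fun F).mp hx
  simp only [Fin.sum_univ_three, cons_val_zero, cons_val_one, cons_val_two, head_cons,
    tail_cons] at hc
  rw [← hc]
  simp [hT.symm₂.bilinear.add_left, hT.symm₂.bilinear.smul_left, hpv, hqv, hqp,
    hT.symm₂.symm v p, hT.symm₂.symm v q, hT.symm₂.symm p q, hv, hp, hq]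

lemma exists_perp_two (a b : Fin 3 → F) : ∃ w, w ≠ 0 ∧ f₂ w a = 0 ∧ f₂ w b = 0 := by
  obtain ⟨w, hw, hw0⟩ := Submodule.exists_mem_ne_zero_of_ne_bot
    (LinearMap.ker_ne_bot_of_finrank_lt (f := (hT.fr a).prod (hT.fr b)) (by simp))
  exact ⟨w, hw0, congrArg Prod.fst hw, congrArg Prod.snd hw⟩

/-- An orthogonal frame through a vector of non-zero value. -/
lemma exists_frame {v : Fin 3 → F} (hv : f₂ v v ≠ 0) : ∃ p q : Fin 3 → F, f₂ p p ≠ 0 ∧
    f₂ q q ≠ 0 ∧ f₂ p v = 0 ∧ f₂ q v = 0 ∧ f₂ q p = 0 := by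
  obtain ⟨p, hpv, hp⟩ : ∃ p, f₂ p v = 0 ∧ f₂ p p ≠ 0 := by
    by_contra hc
    push Not at hc
    obtain ⟨w, hw0, hwv, -⟩ := hT.exists_perp_two v v
    obtain ⟨y, hy⟩ := (hT.symm₂.nondegenerate w hw0).2
    set z := y - (f₂ y v / f₂ v v) • v with hz
    have hzv : f₂ z v = 0 := by
      rw [hz, hT.sub_left₂, hT.symm₂.bilinear.smul_left, div_mul_cancel₀ _ hv, sub_self]
    have hwz : f₂ w z = f₂ w y := by
      rw [hz, hT.sub_right₂, hT.symm₂.bilinear.smul_right, hwv, mul_zero, sub_zero]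
    have h1 := hc (w + (1 : F) • z) (by
      rw [hT.symm₂.bilinear.add_left, hwv, one_smul, hzv, add_zero])
    rw [hT.q_add_smul, hc w hwv, hc z hzv, hwz] at h1
    simp [hT.two] at h1
    exact hy h1
  obtain ⟨q, hq0, hqv, hqp⟩ := hT.exists_perp_two v p
  refine ⟨p, q, hp, fun hq => ?_, hpv, hqv, hqp⟩
  obtain ⟨y, hy⟩ := (hT.symm₂.nondegenerate q hq0).2
  set z := y - (f₂ y v / f₂ v v) • v - (f₂ y p / f₂ p p) • p with hz
  have hzv : f₂ z v = 0 := by
    rw [hz, hT.sub_left₂, hT.sub_left₂, hT.symm₂.bilinear.smul_left, hT.symm₂.bilinear.smul_left,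
      div_mul_cancel₀ _ hv, hpv, mul_zero, sub_self, sub_zero]
  have hzp : f₂ z p = 0 := by
    rw [hz, hT.sub_left₂, hT.sub_left₂, hT.symm₂.bilinear.smul_left, hT.symm₂.bilinear.smul_left,
      div_mul_cancel₀ _ hp, hT.symm₂.symm v p, hpv, mul_zero, sub_zero, sub_self]
  -- `z` and `q` are both orthogonal to `v` and `p`, hence dependent
  have hqz : z ∈ Submodule.span F {q} := by
    have hli : LinearIndependent F ![v, p] := by
      rw [LinearIndependent.pair_iff]
      intro s t hst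
      have e0 := congrArg (fun w => f₂ w v) hst
      have e1 := congrArg (fun w => f₂ w p) hst
      simp [hT.symm₂.bilinear.add_left, hT.symm₂.bilinear.smul_left, hT.zero_left₂, hpv,
        hT.symm₂.symm v p, hv, hp] at e0 e1
      exact ⟨e0, e1⟩
    set Φ := (hT.fr v).prod (hT.fr p) with hΦ
    have hsurj : LinearMap.range Φ = ⊤ := by
      rw [LinearMap.range_eq_top]
      rintro ⟨s, t⟩
      exact ⟨(s / f₂ v v) • v + (t / f₂ p p) • p, by
        simp [hΦ, hT.symm₂.bilinear.add_left, hT.symm₂.bilinear.smul_left, hpv,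
          hT.symm₂.symm v p, hv, hp]⟩
    have h1 := LinearMap.finrank_range_add_finrank_ker Φ
    rw [hsurj, finrank_top, Module.finrank_prod, Module.finrank_self, Module.finrank_fin_fun] at h1
    have hle : Submodule.span F {q} ≤ LinearMap.ker Φ := by
      rw [Submodule.span_le, Set.singleton_subset_iff]
      simp [hΦ, hqv, hqp]
    have := Submodule.eq_of_le_of_finrank_le hle (by rw [finrank_span_singleton hq0]; omega)
    rw [this]
    simp [hΦ, hzv, hzp]
  obtain ⟨c, hc⟩ := Submodule.mem_span_singleton.mp hqz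
  refine hy ?_
  have e : f₂ q z = f₂ q y := by
    rw [hz, hT.sub_right₂, hT.sub_right₂, hT.symm₂.bilinear.smul_right,
      hT.symm₂.bilinear.smul_right, hqv, hqp, mul_zero, mul_zero, sub_zero, sub_zero]
  rw [← e, ← hc, hT.symm₂.bilinear.smul_right, hq, mul_zero]

/-- A frame of two singular vectors pairing to one and a vector orthogonal to both. -/
lemma exists_iso_frame [Finite F] : ∃ a a' h : Fin 3 → F, f₂ a a = 0 ∧ f₂ a' a' = 0 ∧
    f₂ a a' = 1 ∧ f₂ h a = 0 ∧ f₂ h a' = 0 ∧ f₂ h h ≠ 0 ∧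
    ∀ x, x = f₂ x a' • a + f₂ x a • a' + (f₂ x h / f₂ h h) • h := by
  obtain ⟨v, hv⟩ := hT.exists_aniso
  obtain ⟨p, q, hp, hq, hpv, hqv, hqp⟩ := hT.exists_frame hv
  obtain ⟨s, t, hst⟩ := Orth.exists_combination hp hq hT.two (-f₂ v v)
  set a := v + s • p + t • q with ha
  have hQa : f₂ a a = 0 := by
    simp only [ha, hT.symm₂.bilinear.add_left, hT.symm₂.bilinear.add_right,
      hT.symm₂.bilinear.smul_left, hT.symm₂.bilinear.smul_right, hT.symm₂.symm v p,
      hT.symm₂.symm v q, hT.symm₂.symm p q, hpv, hqv, hqp]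
    linear_combination hst
  have hav : f₂ a v = f₂ v v := by
    simp [ha, hT.symm₂.bilinear.add_left, hT.symm₂.bilinear.smul_left, hpv, hqv]
  obtain ⟨y, hay⟩ : ∃ y, f₂ a y = 1 := ⟨(f₂ v v)⁻¹ • v, by
    rw [hT.symm₂.bilinear.smul_right, hav, inv_mul_cancel₀ hv]⟩
  set a' := y + (-(f₂ y y) / 2) • a with ha'
  have haa' : f₂ a a' = 1 := by
    rw [ha', hT.symm₂.bilinear.add_right, hT.symm₂.bilinear.smul_right, hQa, hay, mul_zero,
      add_zero]
  have hQa' : f₂ a' a' = 0 := by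
    rw [ha', hT.q_add_smul, hQa, hT.symm₂.symm y a, hay]
    have := hT.two
    field_simp
    ring
  obtain ⟨h, hh0, hha, hha'⟩ := hT.exists_perp_two a a'
  have hspan : Submodule.span F (Set.range ![a, a', h]) = ⊤ := by
    refine LinearIndependent.span_eq_top_of_card_eq_finrank ?_ (by simp)
    rw [Fintype.linearIndependent_iff]
    intro g hg
    simp only [Fin.sum_univ_three, cons_val_zero, cons_val_one, cons_val_two, head_cons,
      tail_cons] at hg
    have e0 := congrArg (fun w => f₂ w a) hg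
    have e1 := congrArg (fun w => f₂ w a') hg
    simp [hT.symm₂.bilinear.add_left, hT.symm₂.bilinear.smul_left, hT.zero_left₂, hQa, hQa', haa',
      hT.symm₂.symm a' a, hha, hha'] at e0 e1
    rw [e0, e1, zero_smul, zero_smul, zero_add, zero_add, smul_eq_zero, or_iff_left hh0] at hg
    intro i
    fin_cases i
    exacts [e1, e0, hg]
  have hh : f₂ h h ≠ 0 := by
    intro h0
    obtain ⟨z, hz⟩ := (hT.symm₂.nondegenerate h hh0).2
    obtain ⟨c, hc⟩ := (Submodule.mem_span_range_iff_exists_fun F).mp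
      (hspan ▸ Submodule.mem_top (x := z))
    simp only [Fin.sum_univ_three, cons_val_zero, cons_val_one, cons_val_two, head_cons,
      tail_cons] at hc
    refine hz ?_
    rw [← hc]
    simp [hT.symm₂.bilinear.add_right, hT.symm₂.bilinear.smul_right, hha, hha', h0]
  refine ⟨a, a', h, hQa, hQa', haa', hha, hha', hh, fun x => ?_⟩
  obtain ⟨c, hc⟩ := (Submodule.mem_span_range_iff_exists_fun F).mp
    (hspan ▸ Submodule.mem_top (x := x))
  simp only [Fin.sum_univ_three, cons_val_zero, cons_val_one, cons_val_two, head_cons,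
    tail_cons] at hc
  rw [← hc]
  simp [hT.symm₂.bilinear.add_left, hT.symm₂.bilinear.smul_left, hQa, hQa', haa',
    hT.symm₂.symm a' a, hha, hha', hT.symm₂.symm a h, hT.symm₂.symm a' h, hh]

omit hT in
/-- The reflection at `v` as a linear map. -/
noncomputable def rmap (hT : Data f e P f₁ f₂) (v : Fin 3 → F) :
    (Fin 3 → F) →ₗ[F] (Fin 3 → F) :=
  LinearMap.id - ((2 / f₂ v v) • hT.fr v).smulRight v

lemma rmap_apply (v x : Fin 3 → F) : hT.rmap v x = x - (2 / f₂ v v * f₂ x v) • v := by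
  simp [rmap]

lemma rmap_rmap {v : Fin 3 → F} (hv : f₂ v v ≠ 0) (x : Fin 3 → F) :
    hT.rmap v (hT.rmap v x) = x := by
  have h : f₂ (x - (2 / f₂ v v * f₂ x v) • v) v = -f₂ x v := by
    rw [hT.sub_left₂, hT.symm₂.bilinear.smul_left]
    field_simp
    ring
  rw [hT.rmap_apply, hT.rmap_apply, h]
  module

omit hT in
/-- The reflection at `v`. -/
noncomputable def r (hT : Data f e P f₁ f₂) {v : Fin 3 → F} (hv : f₂ v v ≠ 0) : GL (Fin 3) F :=
  ofEquiv (LinearEquiv.ofLinearMap (hT.rmap v) (hT.rmap v)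
    (LinearMap.ext (hT.rmap_rmap hv)) (LinearMap.ext (hT.rmap_rmap hv)))

lemma ap_r {v : Fin 3 → F} (hv : f₂ v v ≠ 0) (x : Fin 3 → F) :
    ap (hT.r hv) x = x - (2 / f₂ v v * f₂ x v) • v := by
  rw [r, ap_ofEquiv, ← hT.rmap_apply]; rfl

lemma r_mem {v : Fin 3 → F} (hv : f₂ v v ≠ 0) : hT.r hv ∈ isom f₂ := fun x y => by
  change f₂ (ap (hT.r hv) x) (ap (hT.r hv) y) = f₂ x y
  rw [hT.ap_r, hT.ap_r, hT.sub_left₂, hT.sub_right₂, hT.sub_right₂]
  simp only [hT.symm₂.bilinear.smul_left, hT.symm₂.bilinear.smul_right, hT.symm₂.symm v y]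
  field_simp
  ring

omit hT in
/-- The reflection on the whole space. -/
noncomputable def R (hT : Data f e P f₁ f₂) {v : Fin 3 → F} (hv : f₂ v v ≠ 0) : GL ι F :=
  kron e P (1 : GL (Fin n) F) (hT.r hv)

lemma ap_R {v : Fin 3 → F} (hv : f₂ v v ≠ 0) (x : ι → F) :
    ap (hT.R hv) x = x - (2 / f₂ v v) • pt e P (hT.cc v x) v := by
  have h : (apEquiv (hT.R hv)).toLinearMap =
      LinearMap.id - (2 / f₂ v v) • (ptl e P v).comp (hT.cc v) :=
    ext_pt e P fun a y => by
      simp only [R, LinearEquiv.coe_coe, apEquiv_apply, ap_kron, ap_one, hT.ap_r,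
        LinearMap.sub_apply, LinearMap.id_apply, LinearMap.smul_apply, LinearMap.comp_apply, cc_pt,
        ptl_apply, pt_sub_right, pt_smul_right, pt_smul_left, smul_smul]
  simpa using LinearMap.congr_fun h x

lemma R_mem {v : Fin 3 → F} (hv : f₂ v v ≠ 0) :
    hT.R hv ∈ Cfsg.Geo.tensorProductSubgroup n 3 e P ⊓ isom f :=
  hT.kron_mem_H (one_mem _) (hT.r_mem hv)

omit hT in
lemma kron_mul (a a' : GL (Fin n) F) (b b' : GL (Fin 3) F) :
    kron e P a b * kron e P a' b' = kron e P (a * a') (b * b') :=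
  gl_ext_pt e P fun x y => by simp [ap_mul]

omit hT in
lemma kron_one : kron e P (1 : GL (Fin n) F) (1 : GL (Fin 3) F) = 1 :=
  gl_ext_pt e P fun x y => by simp

lemma exists_nonzero : ∃ u : Fin n → F, u ≠ 0 :=
  ⟨Pi.single ⟨0, by have := hT.four; omega⟩ 1,
    fun h0 => by simpa using congrFun h0 ⟨0, by have := hT.four; omega⟩⟩

lemma kron_one_inj {t t' : GL (Fin 3) F}
    (h : kron e P (1 : GL (Fin n) F) t = kron e P 1 t') : t = t' := by
  obtain ⟨u, hu⟩ := hT.exists_nonzero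
  refine gl_ext fun z => pt_inj_right e P hu ?_
  simpa using congrArg (fun g => ap g (pt e P u z)) h

/-- The determinant of a similitude in dimension three. -/
lemma det_sq (β : (Fin 3 → F) →ₗ[F] (Fin 3 → F)) {ν : F}
    (h : ∀ y y', f₂ (β y) (β y') = ν * f₂ y y') :
    (LinearMap.toMatrix' β).det * (LinearMap.toMatrix' β).det = ν ^ 3 := by
  classical
  set M := LinearMap.toMatrix' β with hM
  set G := Cfsg.Geo.gramMatrix f₂ with hG
  have hfG : ∀ x y, f₂ x y = x ⬝ᵥ G *ᵥ y := fun x y => by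
    rw [Orth.bilinear_eq_formOfGram hT.symm₂.bilinear x y]
    simp only [Cfsg.Geo.formOfGram, dotProduct, Matrix.mulVec, Finset.mul_sum, id, mul_assoc, hG]
  have hdet : G.det ≠ 0 := by
    intro h0
    obtain ⟨z, hz0, hz⟩ := Matrix.exists_mulVec_eq_zero_iff.mpr h0
    obtain ⟨x, hx⟩ := (hT.symm₂.nondegenerate z hz0).1
    exact hx (by rw [hfG, hz, dotProduct_zero])
  have hconj : Mᵀ * G * M = ν • G := by
    ext i j
    have h1 := h (Pi.single i 1) (Pi.single j 1)
    rw [hfG, hfG, ← LinearMap.toMatrix'_mulVec β, ← LinearMap.toMatrix'_mulVec β, ← hM,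
      Matrix.mulVec_mulVec, dotProduct_mulVec, ← Matrix.transpose_transpose M,
      Matrix.mulVec_transpose, Matrix.transpose_transpose M, Matrix.vecMul_vecMul,
      ← dotProduct_mulVec, single_one_dotProduct, single_one_dotProduct] at h1
    simpa [Matrix.mul_assoc, Matrix.mulVec_single_one] using h1
  have h2 := congrArg Matrix.det hconj
  rw [Matrix.det_mul, Matrix.det_mul, Matrix.det_transpose, Matrix.det_smul, Fintype.card_fin] at h2
  exact mul_right_cancel₀ hdet (by linear_combination h2)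

/-- The multiplier of a similitude in dimension three is a square. -/
lemma exists_sqrt (β : (Fin 3 → F) →ₗ[F] (Fin 3 → F)) {ν : F} (hν : ν ≠ 0)
    (h : ∀ y y', f₂ (β y) (β y') = ν * f₂ y y') : ∃ ρ : F, ρ ≠ 0 ∧ ρ * ρ = ν := by
  have h3 := hT.det_sq β h
  set M := LinearMap.toMatrix' β
  refine ⟨M.det / ν, div_ne_zero (fun h0 => ?_) hν, by field_simp; linear_combination h3⟩
  rw [h0, mul_zero] at h3
  exact pow_ne_zero 3 hν h3.symm

/-- A symmetry of the tensor decomposition preserving the form is a product of isometries. -/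
lemma factor {g : GL ι F} (hg : g ∈ Cfsg.Geo.tensorProductSubgroup n 3 e P) (hgI : g ∈ isom f) :
    ∃ a ∈ isom f₁, ∃ b ∈ isom f₂, g = kron e P a b := by
  obtain ⟨a, b, hab⟩ := (mem_iff e P g).mp hg
  have key : ∀ x x' y y', f₁ (ap a x) (ap a x') * f₂ (ap b y) (ap b y') = f₁ x x' * f₂ y y' :=
    fun x x' y y' => by rw [← hT.form, ← hab, ← hab, mem_isom_iff.mp hgI, hT.form]
  obtain ⟨x₀, hx₀⟩ := hT.exists_nonzero
  obtain ⟨x₁, hx₁⟩ := (hT.symp₁.nondegenerate x₀ hx₀).2
  set μ := f₁ (ap a x₀) (ap a x₁) / f₁ x₀ x₁ with hμ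
  have hb : ∀ y y', μ * f₂ (ap b y) (ap b y') = f₂ y y' := fun y y' => by
    rw [hμ, div_mul_eq_mul_div, key]
    field_simp
  obtain ⟨v, hv⟩ := hT.exists_aniso
  have hμ0 : μ ≠ 0 := fun h0 => hv (by rw [← hb, h0, zero_mul])
  obtain ⟨ρ, hρ0, hρ⟩ := hT.exists_sqrt (apEquiv b).toLinearMap (inv_ne_zero hμ0) fun y y' => by
    rw [← hb y y', ← mul_assoc, inv_mul_cancel₀ hμ0, one_mul]; rfl
  set b' : GL (Fin 3) F := ofEquiv ((apEquiv b).trans (LinearEquiv.smulOfNeZero F _ ρ⁻¹ (inv_ne_zero hρ0)))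
    with hb'
  set a' : GL (Fin n) F := ofEquiv ((apEquiv a).trans (LinearEquiv.smulOfNeZero F _ ρ hρ0)) with ha'
  have apb : ∀ y, ap b' y = ρ⁻¹ • ap b y := fun y => by rw [hb', ap_ofEquiv]; rfl
  have apa : ∀ x, ap a' x = ρ • ap a x := fun x => by rw [ha', ap_ofEquiv]; rfl
  have hb'I : b' ∈ isom f₂ := mem_isom_iff.mpr fun y y' => by
    rw [apb, apb, hT.symm₂.bilinear.smul_left, hT.symm₂.bilinear.smul_right, ← hb y y']
    have : μ = (ρ * ρ)⁻¹ := by rw [hρ, inv_inv]
    rw [this]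
    field_simp
  have hgab : g = kron e P a' b' := gl_ext_pt e P fun x y => by
    rw [hab, ap_kron, apa, apb, pt_smul_left, pt_smul_right, smul_smul, mul_inv_cancel₀ hρ0,
      one_smul]
  refine ⟨a', mem_isom_iff.mpr fun x x' => ?_, b', hb'I, hgab⟩
  have h1 := key x x' v v
  have h2 := mem_isom_iff.mp hb'I v v
  rw [apb, hT.symm₂.bilinear.smul_left, hT.symm₂.bilinear.smul_right] at h2
  rw [apa, apa, hT.symp₁.bilinear.smul_left, hT.symp₁.bilinear.smul_right]
  refine mul_right_cancel₀ hv (Eq.trans ?_ h1)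
  nth_rewrite 1 [← h2]
  field_simp

end Data

end CfsgLib.Geometric.SympThree
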