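import Cfsg.Agent.Lib.Geometric.LinearTensorUnip
import Cfsg.Agent.Lib.Geometric.SympThree.Slice

/-!
In such an overgroup the centraliser of a reflection of the second factor lies in the stabiliser,
and so does every element conjugating a transvection of the first factor, or a reflection of the
second one, into the stabiliser.
-/

set_option autoImplicit false
set_option linter.unusedSectionVars false

namespace CfsgLib.Geometric.SympThree.Data

open Matrix Tensor

variable {ι : Type} [Fintype ι] [DecidableEq ι] {F : Type*} [Field F]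
variable {f : (ι → F) → (ι → F) → F} {n : ℕ} {e : ι ≃ Fin n × Fin 3} {P : GL ι F}
  {f₁ : (Fin n → F) → (Fin n → F) → F} {f₂ : (Fin 3 → F) → (Fin 3 → F) → F}
variable [Finite F] (hT : Data f e P f₁ f₂) {M : Subgroup (GL ι F)} (hM : hT.Small M)
include hT hM

local notation "H₀" => Cfsg.Geo.tensorProductSubgroup n 3 e P

lemma T₁_mem (u : Fin n → F) :
    kron e P (Symp.T hT.symp₁ u 1) (1 : GL (Fin 3) F) ∈ M :=
  hT.kron_mem_M hM (Symp.T_mem_isom hT.symp₁ u 1) (one_mem _)

/-- An element conjugating a transvection of the first factor into the stabiliser lies there. -/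
theorem mem_of_conj_T {u : Fin n → F} (hu : u ≠ 0) {g : GL ι F} (hg : g ∈ M)
    (h : g * kron e P (Symp.T hT.symp₁ u 1) (1 : GL (Fin 3) F) * g⁻¹ ∈ H₀) : g ∈ H₀ := by
  classical
  set y := g * kron e P (Symp.T hT.symp₁ u 1) (1 : GL (Fin 3) F) * g⁻¹ with hy
  have hyx : ∀ x, ap y x = x + ap g (pt e P u (hT.dd u (ap g⁻¹ x))) := fun x => by
    rw [hy, ap_mul, ap_mul, hT.ap_kron_T, one_smul, ap_add, ap_ap_inv]
  obtain ⟨a, b, hab⟩ := (mem_iff e P y).mp h
  obtain ⟨a₀, ha₀⟩ := hT.exists_nonzero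
  obtain ⟨μ, hμ⟩ := exists_scalar (B := (apEquiv b).toLinearMap) fun z => by
    by_cases hz : z = 0
    · exact ⟨0, by simp [hz, ap_zero]⟩
    have hker : LinearMap.ker ((hT.dd u).comp ((apEquiv g⁻¹).toLinearMap.comp (ptl e P z))) ≠ ⊥ :=
      LinearMap.ker_ne_bot_of_finrank_lt (by
        simp only [Module.finrank_fin_fun]; have := hT.four; omega)
    obtain ⟨r, hr, hr0⟩ := Submodule.exists_mem_ne_zero_of_ne_bot hker
    simp only [LinearMap.mem_ker, LinearMap.comp_apply, LinearEquiv.coe_coe, apEquiv_apply,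
      ptl_apply] at hr
    have h1 := hyx (pt e P r z)
    rw [hr, pt_zero_right, ap_zero, add_zero, hab] at h1
    obtain ⟨α, -, hα⟩ := exists_functional_eq_one (U := ⊥) (x := ap a r)
      (by simpa using ap_ne_zero a hr0)
    refine ⟨α r, ?_⟩
    have h2 := congrArg (conr e P α) h1
    rwa [conr_pt, conr_pt, hα, one_smul] at h2
  simp only [LinearEquiv.coe_coe, apEquiv_apply] at hμ
  have hya : ∀ r z, ap y (pt e P r z) = pt e P (μ • ap a r) z := fun r z => by
    rw [hab, hμ, pt_smul_left, pt_smul_right]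
  obtain ⟨r, hr⟩ : ∃ r, μ • ap a r - r ≠ 0 := by
    by_contra hc
    push Not at hc
    have hy1 : y = 1 := gl_ext_pt e P fun r z => by
      rw [hya, sub_eq_zero.mp (hc r), ap_one]
    rw [hy, conj_eq_one_iff] at hy1
    obtain ⟨p, hp⟩ := (hT.symp₁.nondegenerate u hu).1
    obtain ⟨v, hv⟩ := hT.exists_aniso
    have h1 := congrArg (fun k => ap k (pt e P p v)) hy1
    simp only [hT.ap_kron_T, one_smul, ap_one, dd_pt, pt_smul_right, add_eq_left,
      smul_eq_zero] at h1
    exact pt_ne_zero e P hu (fun h0 => hv (by rw [h0, hT.zero_left₂])) (h1.resolve_left hp)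
  have := hT.mem_of_slice hM (g := g⁻¹) (x₀ := u) hr (inv_mem hg) fun z => by
    refine ⟨hT.dd u (ap g⁻¹ (pt e P r z)), ap_injective g ?_⟩
    rw [ap_ap_inv, pt_sub_left, ← hya, hyx, add_sub_cancel_left]
  simpa using inv_mem this

/-- An element moving a slice into the orthogonal of another lies in the stabiliser. -/
theorem mem_of_ortho {v w : Fin n → F} (hv : v ≠ 0) (hw : w ≠ 0) {g : GL ι F} (hg : g ∈ M)
    (h : ∀ y y', f (ap g (pt e P v y)) (pt e P w y') = 0) : g ∈ H₀ := by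
  refine hT.mem_of_conj_T hM hv hg (hT.mem_of_slice hM (x₀ := w) hw
    (mul_mem (mul_mem hg (hT.T₁_mem hM v)) (inv_mem hg)) fun y' => ⟨y', ?_⟩)
  have hc : hT.dd v (ap g⁻¹ (pt e P w y')) = 0 := hT.ext₂ fun y => by
    rw [← hT.f_pt', ← mem_isom_iff.mp (hM.le_isom hg), ap_ap_inv,
      (Symp.eq_zero_comm hT.symp).mp (h y y'), hT.zero_left₂]
  rw [ap_mul, ap_mul, hT.ap_kron_T, hc, pt_zero_right, smul_zero, add_zero, ap_ap_inv]

/-- The centraliser of a reflection of the second factor lies in the stabiliser. -/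
theorem mem_of_comm_R {v : Fin 3 → F} (hv : f₂ v v ≠ 0) {k : GL ι F} (hk : k ∈ M)
    (hcomm : k * hT.R hv = hT.R hv * k) : k ∈ H₀ := by
  classical
  have h2 := hT.two
  obtain ⟨p, q, hp, hq, hpv, hqv, hqp⟩ := hT.exists_frame hv
  obtain ⟨u, hu⟩ := hT.exists_nonzero
  have hkR : ∀ x, ap k (ap (hT.R hv) x) = ap (hT.R hv) (ap k x) := fun x => by
    rw [← ap_mul, hcomm, ap_mul]
  -- the eigenspaces are preserved
  have hkv : ∀ a, hT.cc p (ap k (pt e P a v)) = 0 ∧ hT.cc q (ap k (pt e P a v)) = 0 := by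
    intro a
    have h1 := hkR (pt e P a v)
    rw [hT.ap_R, hT.ap_R, cc_pt, pt_smul_left, smul_smul, div_mul_cancel₀ _ hv] at h1
    have e1 : ap k (pt e P a v) =
        (1 / f₂ v v) • pt e P (hT.cc v (ap k (pt e P a v))) v := by
      rw [ap_sub, ap_smul] at h1
      apply smul_right_injective (ι → F) h2
      simp only [smul_smul]
      linear_combination (norm := skip) -h1
      match_scalars <;> field_simp <;> ring
    constructor
    · rw [e1, map_smul, cc_pt, hT.symm₂.symm v p, hpv, zero_smul, smul_zero]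
    · rw [e1, map_smul, cc_pt, hT.symm₂.symm v q, hqv, zero_smul, smul_zero]
  have hkperp : ∀ a z, f₂ z v = 0 → hT.cc v (ap k (pt e P a z)) = 0 := by
    intro a z hz
    have h1 := hkR (pt e P a z)
    rw [hT.ap_R, hT.ap_R, cc_pt, hz, zero_smul, pt_zero_left, smul_zero, sub_zero, eq_comm,
      sub_eq_self, smul_eq_zero, or_iff_right (div_ne_zero h2 hv)] at h1
    have hv0 : v ≠ 0 := fun h0 => hv (by rw [h0, hT.zero_left₂])
    by_contra hne
    exact pt_ne_zero e P hne hv0 h1
  -- pairings with the frame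
  have hsplit : ∀ (x : ι → F) (c : Fin n → F), f₁ (hT.cc v x) c = 0 → f₁ (hT.cc p x) c = 0 →
      f₁ (hT.cc q x) c = 0 → ∀ y, f x (pt e P c y) = 0 := by
    intro x c h₁ h₂ h₃ y
    rw [hT.span_of_orth hv hp hq hpv hqv hqp y, pt_add_right, pt_add_right, pt_smul_right,
      pt_smul_right, pt_smul_right, hT.symp.bilinear.add_right, hT.symp.bilinear.add_right,
      hT.symp.bilinear.smul_right, hT.symp.bilinear.smul_right, hT.symp.bilinear.smul_right,
      hT.f_pt, hT.f_pt, hT.f_pt, h₁, h₂, h₃]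
    ring
  set T := kron e P (Symp.T hT.symp₁ u 1) (1 : GL (Fin 3) F) with hTdef
  set y := k * T * k⁻¹ with hy
  have hyM : y ∈ M := mul_mem (mul_mem hk (hT.T₁_mem hM u)) (inv_mem hk)
  have hTR : T * hT.R hv = hT.R hv * T := by
    rw [hTdef, R, kron_mul, kron_mul, mul_one, one_mul, mul_one, one_mul]
  have hyR : y * hT.R hv = hT.R hv * y := by
    have e1 : k⁻¹ * hT.R hv = hT.R hv * k⁻¹ := by
      rw [inv_mul_eq_iff_eq_mul, ← mul_assoc, hcomm, mul_inv_cancel_right]
    rw [hy, mul_assoc, e1, ← mul_assoc, mul_assoc k, hTR, ← mul_assoc, hcomm, mul_assoc (hT.R hv),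
      mul_assoc (hT.R hv)]
  refine hT.mem_of_conj_T hM hu hk ?_
  rw [← hy]
  -- two fixed pure tensors
  obtain ⟨w, hw0, w1, w2, w3⟩ : ∃ w, w ≠ 0 ∧ f₁ (hT.cc v (ap k (pt e P u v))) w = 0 ∧
      f₁ (hT.cc p (ap k (pt e P u p))) w = 0 ∧ f₁ (hT.cc p (ap k (pt e P u q))) w = 0 := by
    obtain ⟨w, hw, hw0⟩ := Submodule.exists_mem_ne_zero_of_ne_bot
      (LinearMap.ker_ne_bot_of_finrank_lt (f := LinearMap.pi ![
        (Symp.fl hT.symp₁).flip (hT.cc v (ap k (pt e P u v))),
        (Symp.fl hT.symp₁).flip (hT.cc p (ap k (pt e P u p))),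
        (Symp.fl hT.symp₁).flip (hT.cc p (ap k (pt e P u q)))])
        (by simp only [Module.finrank_fin_fun]; have := hT.four; omega))
    exact ⟨w, hw0, congrFun hw 0, congrFun hw 1, congrFun hw 2⟩
  have hfix : ∀ z, (∀ y, f (ap k (pt e P u y)) (pt e P w z) = 0) →
      ap (k * T * k⁻¹) (pt e P w z) = pt e P w z := by
    intro z hz
    have hc : hT.dd u (ap k⁻¹ (pt e P w z)) = 0 := hT.ext₂ fun y => by
      rw [← hT.f_pt', ← mem_isom_iff.mp (hM.le_isom hk), ap_ap_inv,
        (Symp.eq_zero_comm hT.symp).mp (hz y), hT.zero_left₂]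
    rw [ap_mul, ap_mul, hTdef, hT.ap_kron_T, hc, pt_zero_right, smul_zero, add_zero, ap_ap_inv]
  have hbasis : ∀ z, f (ap k (pt e P u v)) (pt e P w z) = 0 →
      f (ap k (pt e P u p)) (pt e P w z) = 0 → f (ap k (pt e P u q)) (pt e P w z) = 0 →
      ∀ y, f (ap k (pt e P u y)) (pt e P w z) = 0 := by
    intro z h₁ h₂ h₃ y
    rw [hT.span_of_orth hv hp hq hpv hqv hqp y, pt_add_right, pt_add_right, pt_smul_right,
      pt_smul_right, pt_smul_right, ap_add, ap_add, ap_smul, ap_smul, ap_smul,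
      hT.symp.bilinear.add_left, hT.symp.bilinear.add_left, hT.symp.bilinear.smul_left,
      hT.symp.bilinear.smul_left, hT.symp.bilinear.smul_left, h₁, h₂, h₃]
    ring
  have hwv : ap y (pt e P w v) = pt e P w v := by
    rw [hy]
    refine hfix v (hbasis v (by rw [hT.f_pt]; exact w1) ?_ ?_)
    · rw [hT.f_pt, hkperp u p hpv, Symp.zero_left hT.symp₁]
    · rw [hT.f_pt, hkperp u q hqv, Symp.zero_left hT.symp₁]
  have hwp : ap y (pt e P w p) = pt e P w p := by
    rw [hy]
    refine hfix p (hbasis p ?_ (by rw [hT.f_pt]; exact w2) (by rw [hT.f_pt]; exact w3))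
    rw [hT.f_pt, (hkv u).1, Symp.zero_left hT.symp₁]
  set x := ap y (pt e P w q) with hx
  have hxv : hT.cc v x = 0 := by
    have h1 : ap (hT.R hv) x = x := by
      rw [hx, ← ap_mul, ← hyR, ap_mul, hT.ap_R, cc_pt, hqv, zero_smul, pt_zero_left, smul_zero,
        sub_zero]
    rw [hT.ap_R, sub_eq_self, smul_eq_zero, or_iff_right (div_ne_zero h2 hv)] at h1
    have hv0 : v ≠ 0 := fun h0 => hv (by rw [h0, hT.zero_left₂])
    by_contra hne
    exact pt_ne_zero e P hne hv0 h1
  obtain ⟨u', hu'0, u1, u2, u3⟩ : ∃ u', u' ≠ 0 ∧ f₁ w u' = 0 ∧ f₁ (hT.cc p x) u' = 0 ∧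
      f₁ (hT.cc q x) u' = 0 := by
    obtain ⟨w', hw, hw0⟩ := Submodule.exists_mem_ne_zero_of_ne_bot
      (LinearMap.ker_ne_bot_of_finrank_lt (f := LinearMap.pi ![
        (Symp.fl hT.symp₁).flip w, (Symp.fl hT.symp₁).flip (hT.cc p x),
        (Symp.fl hT.symp₁).flip (hT.cc q x)])
        (by simp only [Module.finrank_fin_fun]; have := hT.four; omega))
    exact ⟨w', hw0, congrFun hw 0, congrFun hw 1, congrFun hw 2⟩
  refine hT.mem_of_ortho hM hw0 hu'0 hyM fun z z' => ?_
  rw [hT.span_of_orth hv hp hq hpv hqv hqp z, pt_add_right, pt_add_right, pt_smul_right,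
    pt_smul_right, pt_smul_right, ap_add, ap_add, ap_smul, ap_smul, ap_smul, hwv, hwp, ← hx]
  simp only [hT.symp.bilinear.add_left, hT.symp.bilinear.smul_left, hT.form, u1, zero_mul,
    mul_zero, zero_add, add_zero]
  rw [hsplit x u' (by rw [hxv, Symp.zero_left hT.symp₁]) u2 u3 z', mul_zero]

/-- An element conjugating a reflection of the second factor into the stabiliser lies there. -/
theorem mem_of_conj_R {v : Fin 3 → F} (hv : f₂ v v ≠ 0) {g : GL ι F} (hg : g ∈ M)
    (h : g * hT.R hv * g⁻¹ ∈ H₀) : g ∈ H₀ := by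
  classical
  have h2 := hT.two
  set y := g * hT.R hv * g⁻¹ with hy
  have hRM : hT.R hv ∈ M := hM.le (hT.R_mem hv)
  have hyI : y ∈ isom f := hM.le_isom (mul_mem (mul_mem hg hRM) (inv_mem hg))
  obtain ⟨a, ha, b, hb, hab⟩ := hT.factor h hyI
  have hR2 : ∀ x, ap (hT.R hv) (ap (hT.R hv) x) = x := fun x => by
    rw [hT.ap_R, hT.ap_R, map_sub, map_smul, cc_pt, pt_sub_left, pt_smul_left, pt_smul_left,
      smul_smul, div_mul_cancel₀ _ hv]
    module
  have hy2 : ∀ x, ap y (ap y x) = x := fun x => by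
    simp only [hy, ap_mul, ap_inv_ap, hR2, ap_ap_inv]
  have hpp : ∀ r z, pt e P (ap a (ap a r)) (ap b (ap b z)) = pt e P r z := fun r z => by
    rw [← ap_kron, ← ap_kron, ← hab, hy2]
  -- the square of the second factor is one
  obtain ⟨u₀, hu₀⟩ := hT.exists_nonzero
  obtain ⟨φ, -, hφ⟩ := exists_functional_eq_one (U := ⊥) (x := ap a (ap a u₀))
    (by simpa using ap_ne_zero a (ap_ne_zero a hu₀))
  set t := φ u₀
  have hbt : ∀ z, ap b (ap b z) = t • z := fun z => by
    have := congrArg (conr e P φ) (hpp u₀ z)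
    rwa [conr_pt, conr_pt, hφ, one_smul] at this
  have ht : t = 1 := by
    have hI := mem_isom_iff.mp hb
    have htt : t * t = 1 := by
      have h1 := hI (ap b v) (ap b v)
      rw [hI v v, hbt, hT.symm₂.bilinear.smul_left, hT.symm₂.bilinear.smul_right] at h1
      exact mul_right_cancel₀ hv (by linear_combination h1)
    rcases mul_self_eq_one_iff.mp htt with h1 | h1
    · exact h1
    exfalso
    set B := LinearMap.toMatrix' (apEquiv b).toLinearMap
    have hBB : B * B = (-1 : F) • 1 := by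
      rw [← LinearMap.toMatrix'_comp, show (apEquiv b).toLinearMap.comp (apEquiv b).toLinearMap =
        (-1 : F) • LinearMap.id from LinearMap.ext fun z => by simp [hbt, h1], map_smul,
        LinearMap.toMatrix'_id]
    have h3 := congrArg Matrix.det hBB
    rw [Matrix.det_mul, Matrix.det_smul, Matrix.det_one, Fintype.card_fin] at h3
    have hdet : B.det * B.det = 1 := by
      rw [hT.det_sq (apEquiv b).toLinearMap (ν := 1) fun y y' => by rw [one_mul]; exact hI y y',
        one_pow]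
    rw [hdet] at h3
    exact h2 (by linear_combination h3)
  have haa : ∀ r, ap a (ap a r) = r := fun r => by
    obtain ⟨v₀, hv₀⟩ := hT.exists_aniso
    have := hpp r v₀
    rw [hbt, ht, one_smul] at this
    exact pt_inj_left e P (fun h0 => hv₀ (by rw [h0, hT.zero_left₂])) this
  -- an eigenvector of the first factor
  obtain ⟨u, hu, s, hs, hau⟩ : ∃ u, u ≠ 0 ∧ ∃ s : F, s * s = 1 ∧ ap a u = s • u := by
    by_cases h0 : u₀ + ap a u₀ = 0
    · exact ⟨u₀, hu₀, -1, by ring, by rw [neg_one_smul, eq_neg_iff_add_eq_zero, add_comm, h0]⟩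
    · exact ⟨_, h0, 1, one_mul 1, by rw [ap_add, haa, one_smul, add_comm]⟩
  set T := kron e P (Symp.T hT.symp₁ u 1) (1 : GL (Fin 3) F) with hTdef
  have hyT : y * T * y⁻¹ = T := by
    rw [hab, hTdef, kron_inv, kron_mul, kron_mul, mul_one, mul_inv_cancel, Symp.conj_T hT.symp₁ ha,
      hau, Symp.T_smul, hs, one_mul]
  have hkT : g⁻¹ * T * g ∈ H₀ := by
    refine hT.mem_of_comm_R hM hv (mul_mem (mul_mem (inv_mem hg) (hT.T₁_mem hM u)) hg) ?_
    have e1 : y * T = T * y := mul_inv_eq_iff_eq_mul.mp hyT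
    calc g⁻¹ * T * g * hT.R hv = g⁻¹ * (T * (g * hT.R hv * g⁻¹)) * g := by group
      _ = g⁻¹ * (g * hT.R hv * g⁻¹ * T) * g := by rw [← hy, e1]
      _ = hT.R hv * (g⁻¹ * T * g) := by group
  have := hT.mem_of_conj_T hM hu (inv_mem hg) (by rwa [inv_inv])
  simpa using inv_mem this

end CfsgLib.Geometric.SympThree.Data
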