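import Cfsg.Agent.Lib.Geometric.Dihedral
import Cfsg.Agent.Lib.Geometric.SympThree.Centraliser
import Cfsg.Agent.Lib.Geometric.SOTensor.Max

/-!
The stabiliser of a tensor product of a symplectic space of dimension at least four and a
three-dimensional orthogonal space is maximal in the symplectic group, for odd `q ≥ 5`.
-/

set_option autoImplicit false
set_option linter.unusedSectionVars false

namespace CfsgLib.Geometric

open Matrix Tensor

variable {ι : Type} [Fintype ι] [DecidableEq ι] {F : Type*} [Field F]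

namespace SympThree.Data

variable {f : (ι → F) → (ι → F) → F} {n : ℕ} {e : ι ≃ Fin n × Fin 3} {P : GL ι F}
  {f₁ : (Fin n → F) → (Fin n → F) → F} {f₂ : (Fin 3 → F) → (Fin 3 → F) → F}
variable [Finite F] (hT : Data f e P f₁ f₂)
include hT

local notation "H₀" => Cfsg.Geo.tensorProductSubgroup n 3 e P

/-- A vector orthogonal to a non-singular plane has non-zero value and completes it to a basis. -/
lemma span_three {a b w : Fin 3 → F} (hd : f₂ a a * f₂ b b - f₂ a b * f₂ a b ≠ 0) (hw : w ≠ 0)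
    (hwa : f₂ w a = 0) (hwb : f₂ w b = 0) :
    f₂ w w ≠ 0 ∧ ∀ x, ∃ α β γ : F, x = α • a + β • b + γ • w := by
  have hli : LinearIndependent F ![a, b, w] := by
    rw [Fintype.linearIndependent_iff]
    intro g hg
    simp only [Fin.sum_univ_three, cons_val_zero, cons_val_one, cons_val_two, head_cons,
      tail_cons] at hg
    have e0 := congrArg (fun z => f₂ z a) hg
    have e1 := congrArg (fun z => f₂ z b) hg
    simp [hT.symm₂.bilinear.add_left, hT.symm₂.bilinear.smul_left, hT.zero_left₂, hwa, hwb,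
      hT.symm₂.symm b a] at e0 e1
    have g0 : g 0 = 0 := (mul_eq_zero.mp (show g 0 * (f₂ a a * f₂ b b - f₂ a b * f₂ a b) = 0 by
      linear_combination f₂ b b * e0 - f₂ a b * e1)).resolve_right hd
    have g1 : g 1 = 0 := (mul_eq_zero.mp (show g 1 * (f₂ a a * f₂ b b - f₂ a b * f₂ a b) = 0 by
      linear_combination f₂ a a * e1 - f₂ a b * e0)).resolve_right hd
    rw [g0, g1, zero_smul, zero_smul, zero_add, zero_add, smul_eq_zero, or_iff_left hw] at hg
    intro i
    fin_cases i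
    exacts [g0, g1, hg]
  have hdec : ∀ x, ∃ α β γ : F, x = α • a + β • b + γ • w := fun x => by
    obtain ⟨c, hc⟩ := (Submodule.mem_span_range_iff_exists_fun F).mp
      (hli.span_eq_top_of_card_eq_finrank (by simp) ▸ Submodule.mem_top (x := x))
    exact ⟨c 0, c 1, c 2, by rw [← hc]; simp [Fin.sum_univ_three]⟩
  refine ⟨fun h0 => ?_, hdec⟩
  obtain ⟨z, hz⟩ := (hT.symm₂.nondegenerate w hw).2
  obtain ⟨α, β, γ, rfl⟩ := hdec z
  exact hz (by simp [hT.symm₂.bilinear.add_right, hT.symm₂.bilinear.smul_right, hwa, hwb, h0])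

/-- A singular vector has a singular partner. -/
lemma exists_partner₂ {σ : Fin 3 → F} (hσ : σ ≠ 0) (hQ : f₂ σ σ = 0) :
    ∃ r, f₂ σ r = 1 ∧ f₂ r r = 0 := by
  obtain ⟨y, hy⟩ := (hT.symm₂.nondegenerate σ hσ).2
  obtain ⟨y', hy'⟩ : ∃ y', f₂ σ y' = 1 :=
    ⟨(f₂ σ y)⁻¹ • y, by rw [hT.symm₂.bilinear.smul_right, inv_mul_cancel₀ hy]⟩
  refine ⟨y' + (-(f₂ y' y') / 2) • σ, ?_, ?_⟩
  · rw [hT.symm₂.bilinear.add_right, hT.symm₂.bilinear.smul_right, hQ, hy', mul_zero, add_zero]
  · rw [hT.q_add_smul, hQ, hT.symm₂.symm y' σ, hy']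
    have := hT.two
    field_simp
    ring

/-- Two non-zero singular vectors pair non-trivially with a common singular vector. -/
lemma exists_common {σ τ : Fin 3 → F} (hσ : σ ≠ 0) (hQσ : f₂ σ σ = 0) (hτ : τ ≠ 0)
    (hQτ : f₂ τ τ = 0) : ∃ r, r ≠ 0 ∧ f₂ r r = 0 ∧ f₂ σ r ≠ 0 ∧ f₂ τ r ≠ 0 := by
  obtain ⟨r, hr, hQr⟩ := hT.exists_partner₂ hσ hQσ
  have hr0 : r ≠ 0 := fun h => one_ne_zero (α := F) (by rw [← hr, h, hT.zero_right₂])
  obtain ⟨h, hh0, hhσ, hhr⟩ := hT.exists_perp_two σ r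
  obtain ⟨hh, hdec⟩ := hT.span_three (by rw [hQσ, hQr, hr]; simp) hh0 hhσ hhr
  obtain ⟨α, β, γ, rfl⟩ := hdec τ
  by_cases hα : α = 0
  · subst hα
    have hγ : γ = 0 := by
      simp [hT.symm₂.bilinear.add_left, hT.symm₂.bilinear.add_right, hT.symm₂.bilinear.smul_left,
        hT.symm₂.bilinear.smul_right, hT.symm₂.symm r h, hhr, hQr, hh] at hQτ
      exact hQτ
    subst hγ
    have hβ : β ≠ 0 := fun hβ => hτ (by simp [hβ])
    set l := -(f₂ h h) / 2 with hl
    have h2 := hT.two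
    set ρ := l • σ + r + h with hρ
    have e1 : f₂ σ ρ = 1 := by
      simp [hρ, hT.symm₂.bilinear.add_right, hT.symm₂.bilinear.smul_right, hQσ, hr,
        hT.symm₂.symm σ h, hhσ]
    have e2 : f₂ r ρ = l := by
      simp [hρ, hT.symm₂.bilinear.add_right, hT.symm₂.bilinear.smul_right, hT.symm₂.symm r σ, hr,
        hQr, hT.symm₂.symm r h, hhr]
    have e3 : f₂ h ρ = f₂ h h := by
      simp [hρ, hT.symm₂.bilinear.add_right, hT.symm₂.bilinear.smul_right, hhσ, hhr]
    refine ⟨ρ, fun h0 => one_ne_zero (α := F) (by rw [← e1, h0, hT.zero_right₂]), ?_,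
      by rw [e1]; exact one_ne_zero, ?_⟩
    · conv_lhs => arg 1; rw [hρ]
      rw [hT.symm₂.bilinear.add_left, hT.symm₂.bilinear.add_left, hT.symm₂.bilinear.smul_left,
        e1, e2, e3, hl]
      field_simp
      ring
    · simp only [zero_smul, zero_add, add_zero, hT.symm₂.bilinear.smul_left, e2]
      exact mul_ne_zero hβ (div_ne_zero (neg_ne_zero.mpr hh) h2)
  · refine ⟨r, hr0, hQr, by rw [hr]; exact one_ne_zero, ?_⟩
    simpa [hT.symm₂.bilinear.add_left, hT.symm₂.bilinear.smul_left, hr, hQr, hhr] using hα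

/-- An involutory isometry of the second factor with a fixed vector is a reflection or minus a
reflection. -/
lemma exists_reflection {d : GL (Fin 3) F} (hd : d ∈ isom f₂) (hdd : d * d = 1) (hd1 : d ≠ 1)
    {n₀ : Fin 3 → F} (hn₀ : n₀ ≠ 0) (hfix : ap d n₀ = n₀) :
    ∃ (m : Fin 3 → F) (hm : f₂ m m ≠ 0),
      (∀ x, ap d x = ap (hT.r hm) x) ∨ ∀ x, ap d x = -ap (hT.r hm) x := by
  have h2 := hT.two
  have hI := mem_isom_iff.mp hd
  have hinv : ∀ x, ap d (ap d x) = x := fun x => by rw [← ap_mul, hdd, ap_one]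
  have horth : ∀ x y, ap d x = x → ap d y = -y → f₂ x y = 0 := fun x y hx hy => by
    have := hI x y
    rw [hx, hy, ← neg_one_smul F y, hT.symm₂.bilinear.smul_right] at this
    exact (mul_eq_zero.mp (show (2 : F) * f₂ x y = 0 by linear_combination -this)).resolve_left h2
  have hplus : ∀ x, ap d (x + ap d x) = x + ap d x := fun x => by rw [ap_add, hinv, add_comm]
  have hminus : ∀ x, ap d (x - ap d x) = -(x - ap d x) := fun x => by
    rw [ap_sub, hinv, neg_sub]
  -- vectors of non-zero value in both eigenspaces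
  obtain ⟨p, hdp, hp⟩ : ∃ p, ap d p = p ∧ f₂ p p ≠ 0 := by
    by_contra hc
    push Not at hc
    obtain ⟨y, hy⟩ := (hT.symm₂.nondegenerate n₀ hn₀).2
    have h1 := hc _ (show ap d (n₀ + (1 : F) • (y + ap d y)) = n₀ + (1 : F) • (y + ap d y) by
      rw [ap_add, ap_smul, hfix, hplus])
    rw [hT.q_add_smul, hc n₀ hfix, hc _ (hplus y), hT.symm₂.bilinear.add_right] at h1
    have e1 : f₂ n₀ (ap d y) = f₂ n₀ y := by
      conv_lhs => rw [← hfix]
      exact hI _ _
    rw [e1] at h1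
    exact hy ((mul_eq_zero.mp (show (2 : F) * 2 * f₂ n₀ y = 0 by linear_combination h1)).resolve_left
      (mul_ne_zero h2 h2))
  obtain ⟨m, hdm, hm⟩ : ∃ m, ap d m = -m ∧ f₂ m m ≠ 0 := by
    by_contra hc
    push Not at hc
    refine hd1 (gl_ext fun x => ?_)
    rw [ap_one]
    by_contra hne
    have hne' : x - ap d x ≠ 0 := sub_ne_zero.mpr (Ne.symm hne)
    obtain ⟨y, hy⟩ := (hT.symm₂.nondegenerate _ hne').2
    have h1 := hc _ (show ap d (x - ap d x + (1 : F) • (y - ap d y)) =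
        -(x - ap d x + (1 : F) • (y - ap d y)) by
      rw [ap_add, ap_smul, hminus, hminus, smul_neg, neg_add])
    rw [hT.q_add_smul, hc _ (hminus x), hc _ (hminus y), hT.sub_right₂ (x - ap d x) y] at h1
    have e1 : f₂ (x - ap d x) (ap d y) = -f₂ (x - ap d x) y := by
      have := hI (x - ap d x) y
      rw [hminus, ← neg_one_smul F (x - ap d x), hT.symm₂.bilinear.smul_left] at this
      linear_combination -this
    rw [e1] at h1
    exact hy ((mul_eq_zero.mp (show (2 : F) * 2 * f₂ (x - ap d x) y = 0 by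
      linear_combination h1)).resolve_left (mul_ne_zero h2 h2))
  have hpm : f₂ p m = 0 := horth p m hdp hdm
  have hgram : f₂ p p * f₂ m m - f₂ p m * f₂ p m ≠ 0 := by
    rw [hpm, mul_zero, sub_zero]; exact mul_ne_zero hp hm
  -- the third eigenvector
  obtain ⟨q, hq0, hqp, hqm, hdq⟩ : ∃ q, q ≠ 0 ∧ f₂ q p = 0 ∧ f₂ q m = 0 ∧
      (ap d q = q ∨ ap d q = -q) := by
    obtain ⟨q, hq0, hqp, hqm⟩ := hT.exists_perp_two p m
    have h1 : f₂ (ap d q) p = 0 := by
      have := hI q p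
      rwa [hdp, hqp] at this
    have h1' : f₂ (ap d q) m = 0 := by
      have := hI q m
      rw [hdm, hqm, ← neg_one_smul F m, hT.symm₂.bilinear.smul_right] at this
      linear_combination -this
    by_cases hq : q + ap d q = 0
    · exact ⟨q, hq0, hqp, hqm, Or.inr (eq_neg_of_add_eq_zero_right hq)⟩
    · exact ⟨_, hq, by rw [hT.symm₂.bilinear.add_left, hqp, h1, add_zero],
        by rw [hT.symm₂.bilinear.add_left, hqm, h1', add_zero], Or.inl (hplus q)⟩
  obtain ⟨hq, hdec⟩ := hT.span_three hgram hq0 hqp hqm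
  rcases hdq with hdq | hdq
  · refine ⟨m, hm, Or.inl fun x => ?_⟩
    obtain ⟨α, β, γ, rfl⟩ := hdec x
    simp [hT.ap_r, ap_add, ap_smul, hdp, hdm, hdq, hT.symm₂.bilinear.add_left,
      hT.symm₂.bilinear.smul_left, hpm, hqm]
    match_scalars <;> field_simp
    ring
  · refine ⟨p, hp, Or.inr fun x => ?_⟩
    obtain ⟨α, β, γ, rfl⟩ := hdec x
    simp [hT.ap_r, ap_add, ap_smul, hdp, hdm, hdq, hT.symm₂.bilinear.add_left,
      hT.symm₂.bilinear.smul_left, hT.symm₂.symm m p, hpm, hqp]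
    match_scalars <;> field_simp
    ring

/-- One transvection at a pure tensor with singular second factor gives all transvections. -/
theorem T_mem_of_one {M : Subgroup (GL ι F)} (hM : M ≤ isom f)
    (hH : Cfsg.Geo.tensorProductSubgroup n 3 e P ⊓ isom f ≤ M) {s : Fin 3 → F} (hs : s ≠ 0)
    (hQs : f₂ s s = 0) {u : Fin n → F} {κ : F} (hu : u ≠ 0) (hκ : κ ≠ 0)
    (h : Symp.T hT.symp (pt e P u s) κ ∈ M) (v : ι → F) (c : F) : Symp.T hT.symp v c ∈ M := by
  have hmove : ∀ {a : GL (Fin n) F} {b : GL (Fin 3) F}, a ∈ isom f₁ → b ∈ isom f₂ →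
      ∀ (x : Fin n → F) (y : Fin 3 → F) (t : F), Symp.T hT.symp (pt e P x y) t ∈ M →
        Symp.T hT.symp (pt e P (ap a x) (ap b y)) t ∈ M := by
    intro a b ha hb x y t ht
    have := M.mul_mem (M.mul_mem (hH (hT.kron_mem_H ha hb)) ht)
      (M.inv_mem (hH (hT.kron_mem_H ha hb)))
    rwa [Symp.conj_T hT.symp (hT.kron_isom ha hb), ap_kron] at this
  have hsl : ∀ (x : Fin n → F) (t : F), Symp.T hT.symp (pt e P x s) t ∈ M := by
    intro x t
    by_cases hx : x = 0
    · rw [show Symp.T hT.symp (pt e P x s) t = 1 from gl_ext fun z => by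
        simp [Symp.ap_T, hx, pt_zero_left]]
      exact one_mem M
    have hsq : ∀ a : F, Symp.T hT.symp (pt e P x s) (a * a * κ) ∈ M := by
      intro a
      by_cases ha : a = 0
      · simp [ha, Symp.T_zero_right]
      obtain ⟨g, hg, hgx⟩ := Symp.exists_isom_map hT.symp₁ hu (smul_ne_zero ha hx)
      have := hmove hg (one_mem _) u s κ h
      rwa [hgx, ap_one, pt_smul_left, Symp.T_smul] at this
    obtain ⟨a, b, hab⟩ := Orth.exists_combination (F := F) one_ne_zero one_ne_zero hT.two (t / κ)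
    have := M.mul_mem (hsq a) (hsq b)
    rw [Symp.T_mul] at this
    convert this using 2
    field_simp at hab
    linear_combination -hab
  have hone : ∀ σ τ : Fin 3 → F, f₂ σ σ = 0 → f₂ τ τ = 0 → f₂ σ τ ≠ 0 →
      (∀ x t, Symp.T hT.symp (pt e P x σ) t ∈ M) → ∀ x t, Symp.T hT.symp (pt e P x τ) t ∈ M := by
    intro σ τ hσ hτ hne hall x t
    have hq : f₂ (σ + (-1 : F) • τ) (σ + (-1 : F) • τ) = -(2 * f₂ σ τ) := by
      rw [hT.q_add_smul, hσ, hτ]; ring
    have hq0 : f₂ (σ + (-1 : F) • τ) (σ + (-1 : F) • τ) ≠ 0 := by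
      rw [hq]; exact neg_ne_zero.mpr (mul_ne_zero hT.two hne)
    have := hmove (one_mem (isom f₁)) (hT.r_mem hq0) x σ t (hall x t)
    rw [ap_one, hT.ap_r] at this
    have e1 : f₂ σ (σ + (-1 : F) • τ) = -f₂ σ τ := by
      rw [hT.symm₂.bilinear.add_right, hT.symm₂.bilinear.smul_right, hσ]; ring
    rw [hq, e1] at this
    have h2 := hT.two
    have e2 : σ - (2 / -(2 * f₂ σ τ) * -f₂ σ τ) • (σ + (-1 : F) • τ) = τ := by
      rw [show 2 / -(2 * f₂ σ τ) * -f₂ σ τ = 1 by field_simp]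
      module
    rwa [e2] at this
  have hall : ∀ τ : Fin 3 → F, τ ≠ 0 → f₂ τ τ = 0 → ∀ x t, Symp.T hT.symp (pt e P x τ) t ∈ M := by
    intro τ hτ hQτ
    obtain ⟨r, -, hQr, h1, h2⟩ := hT.exists_common hs hQs hτ hQτ
    exact hone r τ hQr hQτ (by rw [hT.symm₂.symm]; exact h2) (hone s r hQs hQr h1 hsl)
  refine Symp.T_mem_of_connected hT.symp hT.two hM
    (Pset := {p | ∃ x σ, σ ≠ 0 ∧ f₂ σ σ = 0 ∧ pt e P x σ = p}) ?_ ?_ ?_ v c
  · rintro _ ⟨x, σ, hσ, hQσ, rfl⟩ t
    exact hall σ hσ hQσ x t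
  · intro z hz
    by_contra hc
    push Not at hc
    obtain ⟨a, a', h', hQa, hQa', haa', hha, hha', hh, hdec⟩ := hT.exists_iso_frame
    set l := -(f₂ h' h') / 2 with hl
    have h2 := hT.two
    have hQ : f₂ (l • a + a' + h') (l • a + a' + h') = 0 := by
      simp [hT.symm₂.bilinear.add_left, hT.symm₂.bilinear.add_right, hT.symm₂.bilinear.smul_left,
        hT.symm₂.bilinear.smul_right, hQa, hQa', haa', hha, hha', hT.symm₂.symm a h',
        hT.symm₂.symm a' h', hT.symm₂.symm a' a, hl]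
      field_simp
      ring
    have hσ0 : ∀ σ : Fin 3 → F, σ ≠ 0 → f₂ σ σ = 0 → ∀ x, f z (pt e P x σ) = 0 :=
      fun σ hσ hQσ x => hc _ ⟨x, σ, hσ, hQσ, rfl⟩
    have hzero : ∀ x y, f z (pt e P x y) = 0 := by
      intro x
      let φ : (Fin 3 → F) →ₗ[F] F := ((Symp.fl hT.symp).flip z).comp (ptr e P x)
      have hφ : ∀ y, φ y = f z (pt e P x y) := fun y => rfl
      have ne : ∀ {σ w : Fin 3 → F} {c : F}, f₂ σ w = c → c ≠ 0 → σ ≠ 0 := fun h1 h2 h0 =>
        h2 (by rw [← h1, h0, hT.zero_left₂])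
      have k1 : φ a = 0 := by rw [hφ]; exact hσ0 a (ne haa' one_ne_zero) hQa x
      have k2 : φ a' = 0 := by
        rw [hφ]
        exact hσ0 a' (ne (by rw [hT.symm₂.symm a' a]; exact haa') one_ne_zero) hQa' x
      have k3 : φ (l • a + a' + h') = 0 := by
        rw [hφ]
        refine hσ0 _ (ne (w := h') (c := f₂ h' h') ?_ hh) hQ x
        simp [hT.symm₂.bilinear.add_left, hT.symm₂.bilinear.smul_left, hT.symm₂.symm a h',
          hT.symm₂.symm a' h', hha, hha']
      rw [map_add, map_add, map_smul, k1, k2, smul_zero, zero_add, zero_add] at k3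
      intro y
      rw [← hφ, hdec y, map_add, map_add, map_smul, map_smul, map_smul, k1, k2, k3]
      simp
    obtain ⟨w, hw⟩ := (hT.symp.nondegenerate z hz).2
    refine hw (LinearMap.congr_fun (ext_pt e P (f := (Symp.fl hT.symp).flip z) (g := 0)
      fun a y => ?_) w)
    rw [LinearMap.flip_apply, Symp.fl_apply, hzero, LinearMap.zero_apply]
  · rintro _ ⟨x, σ, hσ, hQσ, rfl⟩ _ ⟨y, τ, hτ, hQτ, rfl⟩ hp hq
    have hx : x ≠ 0 := fun h => hp (by rw [h, pt_zero_left])
    have hy : y ≠ 0 := fun h => hq (by rw [h, pt_zero_left])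
    obtain ⟨r, hr, hQr, h1, h2⟩ := hT.exists_common hσ hQσ hτ hQτ
    have hk : ∀ x : Fin n → F, x ≠ 0 → ¬ (⊤ : Submodule F (Fin n → F)) ≤
        LinearMap.ker ((Symp.fl hT.symp₁).flip x) := fun x hx hle => by
      obtain ⟨p, hp⟩ := (hT.symp₁.nondegenerate x hx).2
      exact hp (hle (Submodule.mem_top (x := p)))
    obtain ⟨z, -, hz1, hz2⟩ := exists_mem_notMem_notMem (hk x hx) (hk y hy)
    refine ⟨pt e P z r, ⟨z, r, hr, hQr, rfl⟩, ?_, ?_⟩
    · rw [hT.form]; exact mul_ne_zero hz1 h1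
    · rw [hT.form]; exact mul_ne_zero hz2 h2

/-- Without transvections at pure tensors the overgroup is the stabiliser. -/
theorem le_of_small {M : Subgroup (GL ι F)} (hM : hT.Small M) : M ≤ H₀ := by
  classical
  intro g hg
  have h2 := hT.two
  obtain ⟨a, a', h', hQa, hQa', haa', -⟩ := hT.exists_iso_frame
  obtain ⟨ν, hν⟩ := FiniteField.exists_nonsquare (F := F) (fun hc => h2 (by
    have := ringChar.Nat.cast_ringChar (R := F); rw [hc] at this; exact_mod_cast this))
  have hν0 : ν ≠ 0 := fun h => hν (by rw [h]; exact ⟨0, (mul_zero 0).symm⟩)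
  have hQ : ∀ t : F, f₂ (a + t • a') (a + t • a') = 2 * t := fun t => by
    rw [hT.q_add_smul, hQa, hQa', haa']; ring
  set v := a + (1 : F) • a'
  set w := a + ν • a'
  have hv : f₂ v v ≠ 0 := by rw [hQ, mul_one]; exact h2
  have hw : f₂ w w ≠ 0 := by rw [hQ]; exact mul_ne_zero h2 hν0
  have hconj : ∀ (a : GL (Fin n) F) (b t : GL (Fin 3) F),
      kron e P a b * kron e P 1 t * (kron e P a b)⁻¹ = kron e P 1 (b * t * b⁻¹) := fun a b t => by
    rw [kron_inv, kron_mul, kron_mul, mul_one, mul_inv_cancel]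
  have hr2 : ∀ {m : Fin 3 → F} (hm : f₂ m m ≠ 0), hT.r hm * hT.r hm = 1 := fun {m} hm =>
    gl_ext fun x => by
      rw [ap_mul, hT.ap_r, hT.ap_r, ← hT.rmap_apply, ← hT.rmap_apply, hT.rmap_rmap hm, ap_one]
  have hR2 : ∀ {m : Fin 3 → F} (hm : f₂ m m ≠ 0), hT.R hm * hT.R hm = 1 := fun {m} hm => by
    rw [R, kron_mul, one_mul, hr2, kron_one]
  let p : M := ⟨hT.R hv, hM.le (hT.R_mem hv)⟩
  let x : M := ⟨hT.R hw, hM.le (hT.R_mem hw)⟩
  have key := conj_mem_of_involutions (H := (H₀).subgroupOf M) (p := p) (x := x)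
    (Subgroup.mem_subgroupOf.mpr (hT.R_mem hv).1) (Subgroup.mem_subgroupOf.mpr (hT.R_mem hw).1)
    (Subtype.ext (hR2 hv)) (Subtype.ext (hR2 hw))
    (fun g hg => Subgroup.mem_subgroupOf.mpr
      (hT.mem_of_conj_R hM hv g.2 (Subgroup.mem_subgroupOf.mp hg))) ?_ ?_ ⟨g, hg⟩
  · exact hT.mem_of_conj_R hM hw hg (Subgroup.mem_subgroupOf.mp key)
  · -- the two reflections are not conjugate in the stabiliser
    intro h hh heq
    obtain ⟨c, -, b, hb, hcb⟩ := hT.factor (Subgroup.mem_subgroupOf.mp hh) (hM.le_isom h.2)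
    have heq' : (h : GL ι F) * hT.R hv * (h : GL ι F)⁻¹ = hT.R hw := congrArg Subtype.val heq
    rw [hcb, R, R, hconj] at heq'
    have h1 := congrArg (fun k => ap k (ap b v)) (hT.kron_one_inj heq')
    simp only [ap_mul, ap_inv_ap, hT.ap_r, div_mul_cancel₀ _ hv, ap_sub, ap_smul] at h1
    set t := f₂ (ap b v) w / f₂ w w with ht
    have hbv : ap b v = t • w := by
      apply smul_right_injective (Fin 3 → F) h2
      show (2 : F) • ap b v = (2 : F) • t • w
      rw [smul_smul, ht, show (2 : F) * (f₂ (ap b v) w / f₂ w w) =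
        2 / f₂ w w * f₂ (ap b v) w by ring]
      linear_combination (norm := module) -h1
    have h3 := mem_isom_iff.mp hb v v
    rw [hbv, hT.symm₂.bilinear.smul_left, hT.symm₂.bilinear.smul_right, hQ, hQ, mul_one] at h3
    have htν : t * t * ν = 1 := mul_left_cancel₀ h2 (by linear_combination h3)
    have ht0 : t ≠ 0 := fun h0 => by simp [h0] at htν
    exact hν ⟨t⁻¹, by field_simp; linear_combination htν⟩
  · -- centralisers of the central involutions
    intro g' hg' z hz hz1 hz2 k hk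
    obtain ⟨c, -, b, hb, hcb⟩ := hT.factor
      (hT.mem_of_conj_R hM hw g'.2 (Subgroup.mem_subgroupOf.mp hg')) (hM.le_isom g'.2)
    let φ : GL (Fin 3) F →* GL ι F :=
      { toFun := fun t => kron e P (1 : GL (Fin n) F) t
        map_one' := kron_one
        map_mul' := fun t t' => by rw [kron_mul, one_mul] }
    set t := b * hT.r hw * b⁻¹ with ht
    have hprod : ((p * (g' * x * g'⁻¹) : M) : GL ι F) = φ (hT.r hv * t) := by
      show hT.R hv * ((g' : GL ι F) * hT.R hw * (g' : GL ι F)⁻¹) = kron e P 1 (hT.r hv * t)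
      rw [hcb, R, R, hconj, kron_mul, one_mul]
    obtain ⟨n₀, hn₀, hn₀v, hn₀w⟩ := hT.exists_perp_two v (ap b w)
    let K : Subgroup (GL (Fin 3) F) :=
      { carrier := {d | ap d n₀ = n₀}
        mul_mem' := fun {a b} ha hb => by
          simp only [Set.mem_ofPred_eq] at ha hb ⊢
          rw [ap_mul, hb, ha]
        one_mem' := ap_one n₀
        inv_mem' := fun {a} ha => by
          simp only [Set.mem_ofPred_eq] at ha ⊢
          conv_lhs => rw [← ha, ap_inv_ap] }
    have hvK : hT.r hv ∈ K := by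
      show ap (hT.r hv) n₀ = n₀
      rw [hT.ap_r, hn₀v, mul_zero, zero_smul, sub_zero]
    have htK : t ∈ K := by
      show ap t n₀ = n₀
      have e1 : f₂ (ap b⁻¹ n₀) w = 0 := by
        rw [← mem_isom_iff.mp hb, ap_ap_inv, hn₀w]
      rw [ht, ap_mul, ap_mul, hT.ap_r, e1, mul_zero, zero_smul, sub_zero, ap_ap_inv]
    obtain ⟨i, rfl⟩ := Subgroup.mem_zpowers_iff.mp hz
    set d := (hT.r hv * t) ^ i with hd
    have hzd : (((p * (g' * x * g'⁻¹)) ^ i : M) : GL ι F) = φ d := by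
      rw [SubgroupClass.coe_zpow, hprod, hd, map_zpow]
    have hdI : d ∈ isom f₂ := zpow_mem (mul_mem (hT.r_mem hv)
      (mul_mem (mul_mem hb (hT.r_mem hw)) (inv_mem hb))) i
    have hdd : d * d = 1 := hT.kron_one_inj (by
      show φ (d * d) = φ 1
      rw [map_mul, map_one, ← hzd]
      exact congrArg Subtype.val hz2)
    have hd1 : d ≠ 1 := fun h0 => hz1 (Subtype.ext (by rw [hzd, h0, map_one]; rfl))
    obtain ⟨m, hm, hor⟩ := hT.exists_reflection hdI hdd hd1 hn₀ (zpow_mem (mul_mem hvK htK) i)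
    refine Subgroup.mem_subgroupOf.mpr (hT.mem_of_comm_R hM hm k.2 ?_)
    have hkz : ∀ y, ap (k : GL ι F) (ap (φ d) y) = ap (φ d) (ap (k : GL ι F) y) := fun y => by
      rw [← ap_mul, ← ap_mul, ← hzd]
      exact congrArg (fun g : GL ι F => ap g y) (congrArg Subtype.val (mul_inv_eq_iff_eq_mul.mp hk))
    rcases hor with hor | hor
    · have : φ d = hT.R hm := by
        show kron e P (1 : GL (Fin n) F) d = kron e P 1 (hT.r hm)
        rw [gl_ext hor]
      refine gl_ext fun y => ?_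
      rw [ap_mul, ap_mul, ← this, hkz]
    · have hneg : ∀ y, ap (hT.R hm) y = -ap (φ d) y := fun y => LinearMap.congr_fun
        (ext_pt e P (f := (apEquiv (hT.R hm)).toLinearMap) (g := -(apEquiv (φ d)).toLinearMap)
          fun c y => by
            show ap (hT.R hm) (pt e P c y) = -ap (kron e P (1 : GL (Fin n) F) d) (pt e P c y)
            rw [R, ap_kron, ap_kron, hor, pt_neg_right, neg_neg]) y
      refine gl_ext fun y => ?_
      rw [ap_mul, ap_mul, hneg, hneg, ← neg_one_smul F (ap (φ d) y), ap_smul, hkz, neg_one_smul]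

/-- The stabiliser of the tensor decomposition is maximal. -/
theorem isMaximalIn :
    Cfsg.Geo.IsMaximalIn (isom f) (Cfsg.Geo.tensorProductSubgroup n 3 e P ⊓ isom f) := by
  refine ⟨lt_of_le_of_ne inf_le_right fun he => ?_, fun M hHM hMS => ?_⟩
  · obtain ⟨s, r, h', hQs, hQr, hsr, -⟩ := hT.exists_iso_frame
    obtain ⟨u, hu⟩ := hT.exists_nonzero
    obtain ⟨x, hx⟩ := (hT.symp₁.nondegenerate u hu).1
    obtain ⟨a, b, hab⟩ :=
      (mem_iff e P _).mp ((inf_eq_right.mp he) (Symp.T_mem_isom hT.symp (pt e P u s) 1))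
    have h1 := hab x r
    rw [Symp.ap_T, hT.form, hT.symm₂.symm r s, hsr] at h1
    have e1 := congrArg (hT.cc s) h1
    have e2 := congrArg (hT.cc r) h1
    simp only [map_add, map_smul, cc_pt, hQs, hQr, hsr, hT.symm₂.symm r s, one_smul, zero_smul,
      smul_zero, add_zero, zero_add, mul_one, one_mul] at e1 e2
    have h3 : f₁ x (f₁ x u • u) = 0 := by
      nth_rewrite 1 [e1]
      rw [e2]
      simp [hT.symp₁.bilinear.smul_left, hT.symp₁.bilinear.smul_right, hT.symp₁.alternating]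
    rw [hT.symp₁.bilinear.smul_right, mul_self_eq_zero] at h3
    exact hx h3
  by_cases hc : ∃ (u : Fin n → F) (w : Fin 3 → F) (κ : F),
      u ≠ 0 ∧ w ≠ 0 ∧ κ ≠ 0 ∧ f₂ w w = 0 ∧ Symp.T hT.symp (pt e P u w) κ ∈ M
  · obtain ⟨u, w, κ, hu, hw, hκ, hQw, hm⟩ := hc
    exact Or.inr (le_antisymm hMS (Symp.isom_le_of_T_mem hT.symp fun v c =>
      hT.T_mem_of_one hMS hHM hw hQw hu hκ hm v c))
  · exact Or.inl (le_antisymm (le_inf (hT.le_of_small ⟨hMS, hHM, hc⟩) hMS) hHM)

end SympThree.Data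

/-- The stabiliser of a tensor decomposition with a three-dimensional orthogonal factor is
maximal. -/
theorem symp_three_tensor_isMaximalIn [Fintype F] {f : (ι → F) → (ι → F) → F} {n : ℕ}
    (hf : Cfsg.Geo.IsSymplecticForm f) (hodd : Odd (Fintype.card F)) (hq : 5 ≤ Fintype.card F)
    (hn : 4 ≤ n) {e : ι ≃ Fin n × Fin 3} {P : GL ι F} {f₁ : (Fin n → F) → (Fin n → F) → F}
    {f₂ : (Fin 3 → F) → (Fin 3 → F) → F} (hf₁ : Cfsg.Geo.IsSymplecticForm f₁)
    (hf₂ : Cfsg.Geo.IsSymmetricForm f₂)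
    (hT : Cfsg.Geo.IsTensorFormStructure id f f₁ f₂ e P) :
    Cfsg.Geo.IsMaximalIn (isom f) (Cfsg.Geo.tensorProductSubgroup n 3 e P ⊓ isom f) := by
  classical
  obtain ⟨c, hc, hform⟩ := Tensor.form_pt e P (σ := RingHom.id F)
    (Orth.bilinear_eq_formOfGram hf₁.bilinear) (Orth.bilinear_eq_formOfGram hf₂.bilinear) hT
  refine SympThree.Data.isMaximalIn (f₁ := f₁) (f₂ := fun x y => c * f₂ x y)
    { symp := hf, symp₁ := hf₁, symm₂ := ?_, two := Orth.two_ne_zero_of_odd hodd, four := hn,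
      many := ?_, form := fun x x' y y' => by rw [hform]; ring }
  · exact
      { bilinear :=
          { add_left := fun x y v => by rw [hf₂.bilinear.add_left, mul_add]
            smul_left := fun a x v => by rw [hf₂.bilinear.smul_left, mul_left_comm]
            add_right := fun v x y => by rw [hf₂.bilinear.add_right, mul_add]
            smul_right := fun a v x => by rw [hf₂.bilinear.smul_right, mul_left_comm] }
        symm := fun x y => by rw [hf₂.symm]
        nondegenerate := fun v hv =>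
          ⟨(hf₂.nondegenerate v hv).1.imp fun x hx => mul_ne_zero hc hx,
            (hf₂.nondegenerate v hv).2.imp fun x hx => mul_ne_zero hc hx⟩ }
  · obtain ⟨s, hs⟩ : ∃ s : F, s ∉ ({0, 1, -1} : Finset F) :=
      Finset.exists_mem_notMem_of_card_lt_card (lt_of_le_of_lt Finset.card_le_three
        (by simpa using by omega : 3 < (Finset.univ : Finset F).card)) |>.imp fun _ h => h.2
    simp only [Finset.mem_insert, Finset.mem_singleton, not_or] at hs
    exact ⟨s, hs.1, fun h => (mul_self_eq_one_iff.mp h).elim hs.2.1 hs.2.2⟩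

end CfsgLib.Geometric
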