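import Cfsg.Agent.Lib.Geometric.SympThree.Basic

/-!
The radical of the stabiliser of a slice `a ⊗ F^3` inside an overgroup, without transvections at
pure tensors with a singular second factor, of the stabiliser of the tensor decomposition: its
central part is scalar and its linear parts are factorwise.
-/

set_option autoImplicit false
set_option linter.unusedSectionVars false

namespace CfsgLib.Geometric.SympThree.Data

open Matrix Tensor

variable {ι : Type} [Fintype ι] [DecidableEq ι] {F : Type*} [Field F]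
variable {f : (ι → F) → (ι → F) → F} {n : ℕ} {e : ι ≃ Fin n × Fin 3} {P : GL ι F}
  {f₁ : (Fin n → F) → (Fin n → F) → F} {f₂ : (Fin 3 → F) → (Fin 3 → F) → F}
variable [Finite F] (hT : Data f e P f₁ f₂)

/-- An overgroup of the stabiliser without transvections at pure tensors with singular second
factor. -/
structure Small (hT : Data f e P f₁ f₂) (M : Subgroup (GL ι F)) : Prop where
  le_isom : M ≤ isom f
  le : Cfsg.Geo.tensorProductSubgroup n 3 e P ⊓ isom f ≤ M
  noT : ¬ ∃ (u : Fin n → F) (w : Fin 3 → F) (κ : F),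
    u ≠ 0 ∧ w ≠ 0 ∧ κ ≠ 0 ∧ f₂ w w = 0 ∧ Symp.T hT.symp (pt e P u w) κ ∈ M

/-- A central element at `a` with the given map. -/
def Cen (hT : Data f e P f₁ f₂) (M : Subgroup (GL ι F)) (a : Fin n → F)
    (S : (Fin 3 → F) →ₗ[F] (Fin 3 → F)) : Prop :=
  ∃ m ∈ M, ∀ x, ap m x = x + pt e P a (S (hT.dd a x))

/-- A radical element at `a` with the given linear part. -/
def Rad (hT : Data f e P f₁ f₂) (M : Subgroup (GL ι F)) (a : Fin n → F)
    (Λ : (Fin 3 → F) →ₗ[F] (ι → F)) : Prop :=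
  ∃ m ∈ M, ∀ x, ap m x - x - Λ (hT.dd a x) ∈ LinearMap.range (ptr e P a)

include hT

omit [Finite F] in
lemma dd_add (u u' : Fin n → F) : hT.dd (u + u') = hT.dd u + hT.dd u' :=
  ext_pt e P fun a y => by simp [hT.symp₁.bilinear.add_right, add_smul]

omit [Finite F] in
lemma dd_smul (c : F) (u : Fin n → F) : hT.dd (c • u) = c • hT.dd u :=
  ext_pt e P fun a y => by simp [hT.symp₁.bilinear.smul_right, smul_smul]

omit [Finite F] in
/-- A map preserving a skew relation and the form up to a factor is zero. -/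
lemma skew_zero [Finite F] {K : (Fin 3 → F) →ₗ[F] (Fin 3 → F)}
    (hsk : ∀ y y', f₂ (K y) y' + f₂ y (K y') = 0) {κ : F}
    (hκ : ∀ y y', f₂ (K y) (K y') = κ * f₂ y y') (x : Fin 3 → F) : K x = 0 := by
  obtain ⟨a, a', h, hQa, hQa', haa', hha, hha', hh, hdec⟩ := hT.exists_iso_frame
  have hself : ∀ y, f₂ (K y) y = 0 := fun y => by
    have := hsk y y
    rw [hT.symm₂.symm y (K y), ← two_mul] at this
    exact (mul_eq_zero.mp this).resolve_left hT.two
  have eig : ∀ s, f₂ s s = 0 → ∀ t : F, K s = t • s + (f₂ (K s) h / f₂ h h) • h →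
      K s = t • s := by
    intro s hs t ht
    have h1 := hκ s s
    rw [hs, mul_zero] at h1
    have h2 : f₂ (K s) h = 0 := by
      by_contra hne
      have hK := hself s
      have e1 : f₂ (K s) (K s) = f₂ (K s) h / f₂ h h * f₂ (K s) h := by
        conv_lhs => arg 2; rw [ht]
        rw [hT.symm₂.bilinear.add_right, hT.symm₂.bilinear.smul_right,
          hT.symm₂.bilinear.smul_right, hK, mul_zero, zero_add]
      rw [e1] at h1
      exact mul_ne_zero (div_ne_zero hne hh) hne h1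
    rwa [h2, zero_div, zero_smul, add_zero] at ht
  have hKa : K a = f₂ (K a) a' • a := eig a hQa _ (by
    conv_lhs => rw [hdec (K a), hself a, zero_smul, add_zero])
  have hKa' : K a' = f₂ (K a') a • a' := eig a' hQa' _ (by
    conv_lhs => rw [hdec (K a'), hself a', zero_smul, zero_add])
  set t := f₂ (K a) a' with ht
  set t' := f₂ (K a') a with ht'
  have htt : t + t' = 0 := by
    have := hsk a a'
    rw [hT.symm₂.symm a (K a')] at this
    exact this
  have hKh : K h = 0 := by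
    have e1 : f₂ (K h) a = 0 := by
      have := hsk h a
      rwa [hKa, hT.symm₂.bilinear.smul_right, hha, mul_zero, add_zero] at this
    have e2 : f₂ (K h) a' = 0 := by
      have := hsk h a'
      rwa [hKa', hT.symm₂.bilinear.smul_right, hha', mul_zero, add_zero] at this
    rw [hdec (K h), e1, e2, hself h]
    simp
  have hκ0 : κ = 0 := by
    have := hκ h h
    rw [hKh, hT.zero_left₂] at this
    exact (mul_eq_zero.mp this.symm).resolve_right hh
  have ht0 : t = 0 := by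
    have := hκ a a'
    rw [hκ0, zero_mul, hKa, hKa', hT.symm₂.bilinear.smul_left, hT.symm₂.bilinear.smul_right, haa',
      mul_one, mul_eq_zero] at this
    exact this.elim id fun h0 => by rwa [h0, add_zero] at htt
  rw [ht0, zero_add] at htt
  rw [hdec x, map_add, map_add, map_smul, map_smul, map_smul, hKa, hKa', hKh, ht0, htt]
  simp

variable {M : Subgroup (GL ι F)} (hM : hT.Small M) {a : Fin n → F} (ha : a ≠ 0)

include hM in
omit [Finite F] in
lemma kron_mem_M {g : GL (Fin n) F} {b : GL (Fin 3) F} (hg : g ∈ isom f₁) (hb : b ∈ isom f₂) :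
    kron e P g b ∈ M :=
  hM.le (hT.kron_mem_H hg hb)

lemma cen_add {S S' : (Fin 3 → F) →ₗ[F] (Fin 3 → F)} (h : hT.Cen M a S) (h' : hT.Cen M a S') :
    hT.Cen M a (S + S') := by
  obtain ⟨m, hm, hmx⟩ := h
  obtain ⟨m', hm', hmx'⟩ := h'
  refine ⟨m * m', mul_mem hm hm', fun x => ?_⟩
  have h0 : hT.dd a (pt e P a (S' (hT.dd a x))) = 0 := by
    rw [dd_pt, hT.symp₁.alternating, zero_smul]
  rw [ap_mul, hmx', hmx, map_add, h0, add_zero, LinearMap.add_apply, pt_add_right]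
  abel

include hM ha

lemma cen_id : hT.Cen M a LinearMap.id :=
  ⟨_, hT.kron_mem_M hM (Symp.T_mem_isom hT.symp₁ a 1) (one_mem _), fun x => by
    rw [hT.ap_kron_T, one_smul, LinearMap.id_apply]⟩

lemma cen_smul {S : (Fin 3 → F) →ₗ[F] (Fin 3 → F)} (h : hT.Cen M a S) (c : F) :
    hT.Cen M a (c • S) := by
  have hzero : hT.Cen M a 0 := ⟨1, one_mem M, fun x => by simp [pt_zero_right]⟩
  have sq : ∀ l : F, hT.Cen M a ((l * l) • S) := by
    intro l
    by_cases hl : l = 0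
    · simpa [hl] using hzero
    obtain ⟨g, hg, hga⟩ := Symp.exists_isom_map hT.symp₁ ha (smul_ne_zero hl ha)
    set K := kron e P g (1 : GL (Fin 3) F)
    have hK : K ∈ M := hT.kron_mem_M hM hg (one_mem _)
    obtain ⟨m, hm, hmx⟩ := h
    refine ⟨K * m * K⁻¹, mul_mem (mul_mem hK hm) (inv_mem hK), fun x => ?_⟩
    have hc : hT.dd a (ap K⁻¹ x) = l • hT.dd a x := hT.ext₂ fun y => by
      rw [← hT.f_pt', ← mem_isom_iff.mp (hM.le_isom hK), ap_ap_inv, ap_kron, hga, ap_one,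
        hT.symm₂.bilinear.smul_left, ← hT.f_pt', pt_smul_left, hT.symp.bilinear.smul_right]
    rw [ap_mul, ap_mul, hmx, ap_add, ap_ap_inv, ap_kron, hga, ap_one, hc, map_smul,
      LinearMap.smul_apply, pt_smul_left, pt_smul_right, pt_smul_right, smul_smul]
  obtain ⟨α, β, hαβ⟩ := Orth.exists_combination (F := F) one_ne_zero one_ne_zero hT.two c
  have := hT.cen_add (sq α) (sq β)
  rwa [← add_smul, show α * α + β * β = c by linear_combination hαβ] at this

lemma cen_conj {S : (Fin 3 → F) →ₗ[F] (Fin 3 → F)} (h : hT.Cen M a S) {b : GL (Fin 3) F}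
    (hb : b ∈ isom f₂) :
    hT.Cen M a ((apEquiv b).toLinearMap ∘ₗ S ∘ₗ (apEquiv b⁻¹).toLinearMap) := by
  set K := kron e P (1 : GL (Fin n) F) b
  have hK : K ∈ M := hT.kron_mem_M hM (one_mem _) hb
  obtain ⟨m, hm, hmx⟩ := h
  refine ⟨K * m * K⁻¹, mul_mem (mul_mem hK hm) (inv_mem hK), fun x => ?_⟩
  have hc : hT.dd a (ap K⁻¹ x) = ap b⁻¹ (hT.dd a x) := hT.ext₂ fun y => by
    rw [← hT.f_pt', ← mem_isom_iff.mp (hM.le_isom hK), ap_ap_inv, ap_kron, ap_one, hT.f_pt',
      ← mem_isom_iff.mp hb (ap b⁻¹ _), ap_ap_inv]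
  rw [ap_mul, ap_mul, hmx, ap_add, ap_ap_inv, ap_kron, ap_one, hc]
  rfl

lemma cen_selfadjoint {S : (Fin 3 → F) →ₗ[F] (Fin 3 → F)} (h : hT.Cen M a S) (y y' : Fin 3 → F) :
    f₂ (S y) y' = f₂ y (S y') := by
  obtain ⟨p, hp⟩ := (hT.symp₁.nondegenerate a ha).1
  obtain ⟨m, hm, hmx⟩ := h
  have h1 := mem_isom_iff.mp (hM.le_isom hm) (pt e P p y) (pt e P p y')
  rw [hmx, hmx, dd_pt, dd_pt, map_smul, map_smul, pt_smul_right, pt_smul_right] at h1
  simp only [hT.symp.bilinear.add_left, hT.symp.bilinear.add_right, hT.symp.bilinear.smul_left,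
    hT.symp.bilinear.smul_right, hT.form, hT.symp₁.alternating, hT.symp₁.skew a p] at h1
  refine mul_left_cancel₀ (mul_ne_zero hp hp) ?_
  linear_combination -h1

/-- A central element kills the values at singular vectors. -/
lemma cen_quad {S : (Fin 3 → F) →ₗ[F] (Fin 3 → F)} (h : hT.Cen M a S) {s w : Fin 3 → F}
    (hs : f₂ s s = 0) (hs0 : s ≠ 0) (hws : f₂ w s = 0) (hw : f₂ w w ≠ 0) : f₂ (S s) s = 0 := by
  by_contra hne
  obtain ⟨r, hr0, hr1⟩ := hT.many
  have hsw : f₂ s w = 0 := by rw [hT.symm₂.symm, hws]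
  let N : (Fin 3 → F) →ₗ[F] (Fin 3 → F) := (hT.fr s).smulRight w - (hT.fr w).smulRight s
  let N₂ : (Fin 3 → F) →ₗ[F] (Fin 3 → F) := (-(f₂ w w / 2)) • (hT.fr s).smulRight s
  have hN : ∀ y, N y = f₂ y s • w - f₂ y w • s := fun y => rfl
  have hN₂ : ∀ y, N₂ y = (-(f₂ w w / 2) * f₂ y s) • s := fun y => by simp [N₂, smul_smul]
  let U : F → (Fin 3 → F) →ₗ[F] (Fin 3 → F) := fun t => LinearMap.id + t • N + (t * t) • N₂
  have hU : ∀ t y y', f₂ (U t y) (U t y') = f₂ y y' := by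
    intro t y y'
    simp only [U, LinearMap.add_apply, LinearMap.smul_apply, LinearMap.id_apply, hN, hN₂,
      hT.symm₂.bilinear.add_left, hT.symm₂.bilinear.add_right, hT.symm₂.bilinear.smul_left,
      hT.symm₂.bilinear.smul_right, hT.sub_left₂, hT.sub_right₂, hs, hws, hsw,
      hT.symm₂.symm s y', hT.symm₂.symm w y']
    have := hT.two
    field_simp
    ring
  have hinv : ∀ t y, U t (U (-t) y) = y := by
    intro t y
    simp only [U, LinearMap.add_apply, LinearMap.smul_apply, LinearMap.id_apply, hN, hN₂, map_add,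
      map_smul, map_sub, hT.symm₂.bilinear.add_left, hT.symm₂.bilinear.smul_left, hT.sub_left₂,
      hs, hws, hsw]
    have := hT.two
    match_scalars <;> field_simp <;> ring
  have hcen : ∀ t, hT.Cen M a (U t ∘ₗ S ∘ₗ U (-t)) := by
    intro t
    have hinv' : ∀ y, U (-t) (U t y) = y := fun y => by
      conv_lhs => rw [show t = -(-t) from (neg_neg t).symm]
      rw [neg_neg]
      simpa using hinv (-t) y
    set b : GL (Fin 3) F := ofEquiv (LinearEquiv.ofLinearMap (U t) (U (-t))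
      (LinearMap.ext (hinv t)) (LinearMap.ext hinv')) with hb
    have apb : ∀ y, ap b y = U t y := fun y => by rw [hb, ap_ofEquiv]; rfl
    have hbI : b ∈ isom f₂ := mem_isom_iff.mpr fun y y' => by rw [apb, apb, hU]
    have := hT.cen_conj hM ha h hbI
    convert this using 1
    refine LinearMap.ext fun y => ?_
    have e1 : ap b⁻¹ y = U (-t) y := ap_injective b (by rw [ap_ap_inv, apb, hinv])
    simp [apb, e1]
  have hsum : ∀ t, hT.Cen M a (U t ∘ₗ S ∘ₗ U (-t) + U (-t) ∘ₗ S ∘ₗ U t + (-2 : F) • S) := by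
    intro t
    refine hT.cen_add (hT.cen_add (hcen t) ?_) (hT.cen_smul hM ha h _)
    simpa using hcen (-t)
  have hY := hT.cen_smul hM ha
    (hT.cen_add (hsum r) (hT.cen_smul hM ha (hsum 1) (-(r * r))))
    (1 / (2 * (r * r) * (r * r - 1)) / ((f₂ w w / 2) * (f₂ w w / 2) * f₂ (S s) s))
  obtain ⟨m, hm, hmx⟩ := hY
  refine hM.noT ⟨a, s, 1, ha, hs0, one_ne_zero, hs, ?_⟩
  convert hm using 1
  refine gl_ext fun x => ?_
  rw [hmx, Symp.ap_T, hT.f_pt', ← pt_smul_right, one_mul]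
  congr 2
  simp only [U, LinearMap.smul_apply, LinearMap.add_apply, LinearMap.comp_apply, LinearMap.id_apply,
    hN, hN₂, map_add, map_smul, map_sub, hT.sub_left₂, hT.symm₂.bilinear.add_left,
    hT.symm₂.bilinear.smul_left, hs, hws, hsw]
  have := hT.two
  have := sub_ne_zero.mpr hr1
  have : r ^ 2 - 1 ≠ 0 := by rwa [sq]
  match_scalars <;> field_simp <;> ring

/-- A central element is scalar. -/
theorem cen_scalar {S : (Fin 3 → F) →ₗ[F] (Fin 3 → F)} (h : hT.Cen M a S) :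
    ∃ c : F, ∀ y, S y = c • y := by
  obtain ⟨b, b', w, hQb, hQb', hbb', hwb, hwb', hw, hdec⟩ := hT.exists_iso_frame
  obtain ⟨r, hr0, hr1⟩ := hT.many
  have h2 := hT.two
  have hb0 : b ≠ 0 := fun h0 => one_ne_zero (α := F) (by rw [← hbb', h0, hT.zero_left₂])
  have hb'0 : b' ≠ 0 := fun h0 => one_ne_zero (α := F) (by rw [← hbb', h0, hT.zero_right₂])
  have sa := hT.cen_selfadjoint hM ha h
  have q1 := hT.cen_quad hM ha h hQb hb0 hwb hw
  have q2 := hT.cen_quad hM ha h hQb' hb'0 hwb' hw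
  set μ := f₂ w w with hμ
  set k := f₂ (S b) b' with hk
  set l := f₂ (S w) w with hl
  set g₁ := f₂ (S b) w with hg₁
  set g₂ := f₂ (S b') w with hg₂
  have key : ∀ t : F, t ≠ 0 → t * (l - μ * k) + 2 * g₁ - t * t * μ * g₂ = 0 := by
    intro t ht
    set x := b + t • w + (-(t * t * μ / 2)) • b' with hx
    have hxx : f₂ x x = 0 := by
      simp only [hx, hT.symm₂.bilinear.add_left, hT.symm₂.bilinear.add_right,
        hT.symm₂.bilinear.smul_left, hT.symm₂.bilinear.smul_right, hQb, hQb', hbb', hwb, hwb',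
        hT.symm₂.symm b' b, hT.symm₂.symm b w, hT.symm₂.symm b' w, ← hμ]
      field_simp
      ring
    have hx0 : x ≠ 0 := by
      intro h0
      have := congrArg (fun v => f₂ v b') h0
      simp only [hx, hT.symm₂.bilinear.add_left, hT.symm₂.bilinear.smul_left, hQb', hbb', hwb',
        hT.zero_left₂, mul_zero, add_zero] at this
      exact one_ne_zero this
    have hyx : f₂ (w + (-(t * μ)) • b') x = 0 := by
      simp only [hx, hT.symm₂.bilinear.add_left, hT.symm₂.bilinear.add_right,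
        hT.symm₂.bilinear.smul_left, hT.symm₂.bilinear.smul_right, hQb', hbb', hwb, hwb',
        hT.symm₂.symm b' b, hT.symm₂.symm b' w, ← hμ]
      ring
    have hyy : f₂ (w + (-(t * μ)) • b') (w + (-(t * μ)) • b') ≠ 0 := by
      rw [hT.q_add_smul, hQb', hwb', mul_zero, mul_zero, add_zero, add_zero]
      exact hw
    have hq := hT.cen_quad hM ha h hxx hx0 hyx hyy
    simp only [hx, map_add, map_smul, hT.symm₂.bilinear.add_left, hT.symm₂.bilinear.add_right,
      hT.symm₂.bilinear.smul_left, hT.symm₂.bilinear.smul_right, q1, q2, ← hl,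
      sa b' b, hT.symm₂.symm b' (S b), ← hk, sa w b, hT.symm₂.symm w (S b), ← hg₁,
      sa w b', hT.symm₂.symm w (S b'), ← hg₂] at hq
    have h4 : (4 : F) ≠ 0 := by rw [show (4 : F) = 2 * 2 by norm_num]; exact mul_ne_zero h2 h2
    refine mul_left_cancel₀ (mul_ne_zero h4 ht) ?_
    field_simp at hq
    linear_combination hq
  have k1 := key 1 one_ne_zero
  have k2 := key (-1) (by simp)
  have k3 := key r hr0
  have e1 : l = μ * k := by
    have : 2 * (l - μ * k) = 0 := by linear_combination k1 - k2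
    exact sub_eq_zero.mp ((mul_eq_zero.mp this).resolve_left h2)
  have e2 : g₂ = 0 := by
    have : μ * g₂ * (r * r - 1) = 0 := by
      rw [e1, sub_self, mul_zero] at k1 k3
      linear_combination k1 - k3
    exact (mul_eq_zero.mp ((mul_eq_zero.mp this).resolve_right (sub_ne_zero.mpr hr1))).resolve_left hw
  have e3 : g₁ = 0 := by
    rw [e1, e2] at k1
    have : 2 * g₁ = 0 := by linear_combination k1
    exact (mul_eq_zero.mp this).resolve_left h2
  refine ⟨k, fun y => ?_⟩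
  have hb : S b = k • b := by
    conv_lhs => rw [hdec (S b), q1, ← hk, ← hg₁, e3]
    simp
  have hb' : S b' = k • b' := by
    conv_lhs => rw [hdec (S b'), q2, ← hg₂, e2, sa b' b, hT.symm₂.symm b' (S b), ← hk]
    simp
  have hw' : S w = k • w := by
    conv_lhs => rw [hdec (S w), sa w b', hT.symm₂.symm w (S b'), ← hg₂, e2, sa w b,
      hT.symm₂.symm w (S b), ← hg₁, e3, ← hl, e1]
    simp only [hμ, zero_smul, add_zero, zero_add]
    rw [mul_div_cancel_left₀ _ hw]
  rw [hdec y, map_add, map_add, map_smul, map_smul, map_smul, hb, hb', hw', smul_add, smul_add,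
    smul_comm k, smul_comm k, smul_comm k]

omit ha in
/-- A radical element fixes the slice and keeps the contraction. -/
lemma rad_fix {m : GL ι F} (hm : m ∈ M) {Λ : (Fin 3 → F) →ₗ[F] (ι → F)}
    (hΛ : ∀ c, hT.dd a (Λ c) = 0)
    (hmx : ∀ x, ap m x - x - Λ (hT.dd a x) ∈ LinearMap.range (ptr e P a)) :
    (∀ y, ap m (pt e P a y) = pt e P a y) ∧ ∀ x, hT.dd a (ap m x) = hT.dd a x := by
  have hda : ∀ y, hT.dd a (pt e P a y) = 0 := fun y => by
    rw [dd_pt, hT.symp₁.alternating, zero_smul]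
  have hdd : ∀ x, hT.dd a (ap m x) = hT.dd a x := by
    intro x
    obtain ⟨w, hw⟩ := hmx x
    rw [ptr_apply] at hw
    have : ap m x = x + Λ (hT.dd a x) + pt e P a w := by rw [hw]; abel
    rw [this, map_add, map_add, hΛ, hda, add_zero, add_zero]
  refine ⟨fun y => ?_, hdd⟩
  by_contra hne
  obtain ⟨p, hp⟩ := (hT.symp.nondegenerate _ (sub_ne_zero.mpr hne)).1
  apply hp
  obtain ⟨q, rfl⟩ : ∃ q, ap m q = p := ⟨ap m⁻¹ p, ap_ap_inv m p⟩
  rw [Symp.sub_right hT.symp, mem_isom_iff.mp (hM.le_isom hm), hT.f_pt', hT.f_pt', hdd, sub_self]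

omit ha in
/-- On the orthogonal of the slice the moved part is adjoint to the linear part. -/
lemma rad_perp {m : GL ι F} (hm : m ∈ M) {Λ : (Fin 3 → F) →ₗ[F] (ι → F)}
    (hΛ : ∀ c, hT.dd a (Λ c) = 0)
    (hmx : ∀ x, ap m x - x - Λ (hT.dd a x) ∈ LinearMap.range (ptr e P a)) {y : ι → F}
    (hy : hT.dd a y = 0) :
    ap m y - y ∈ LinearMap.range (ptr e P a) ∧ ∀ p, f (ap m y - y) p = -f y (Λ (hT.dd a p)) := by
  obtain ⟨-, hdd⟩ := hT.rad_fix hM hm hΛ hmx
  have h1 : ap m y - y ∈ LinearMap.range (ptr e P a) := by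
    have := hmx y
    rwa [hy, map_zero, sub_zero] at this
  refine ⟨h1, fun p => ?_⟩
  obtain ⟨w, hw⟩ := h1
  obtain ⟨w', hw'⟩ := hmx p
  rw [ptr_apply] at hw hw'
  have hmy : ap m y = y + pt e P a w := by rw [hw]; abel
  have hmp : ap m p = p + Λ (hT.dd a p) + pt e P a w' := by rw [hw']; abel
  have h2 := mem_isom_iff.mp (hM.le_isom hm) y p
  have h3 : f (ap m y) (pt e P a w') = 0 := by
    rw [hT.f_pt', hdd, hy, hT.zero_left₂]
  have h4 : f (pt e P a w) (Λ (hT.dd a p)) = 0 := by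
    rw [hT.symp.skew, hT.f_pt', hΛ, hT.zero_left₂, neg_zero]
  rw [hmp, hT.symp.bilinear.add_right, h3, add_zero, hmy, hT.symp.bilinear.add_left,
    hT.symp.bilinear.add_right, hT.symp.bilinear.add_right, h4, add_zero] at h2
  rw [← hw]
  linear_combination h2

/-- Two radical elements pair to a multiple of the form. -/
lemma pair_of_rad {Λ Λ' : (Fin 3 → F) →ₗ[F] (ι → F)} (hΛ : ∀ c, hT.dd a (Λ c) = 0)
    (hΛ' : ∀ c, hT.dd a (Λ' c) = 0) (h : hT.Rad M a Λ) (h' : hT.Rad M a Λ') :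
    ∃ σ : F, ∀ y y', f (Λ' y) (Λ y') - f (Λ y) (Λ' y') = σ * f₂ y y' := by
  obtain ⟨m, hm, hmx⟩ := h
  obtain ⟨m', hm', hmx'⟩ := h'
  obtain ⟨hf1, hd1⟩ := hT.rad_fix hM hm hΛ hmx
  obtain ⟨hf2, hd2⟩ := hT.rad_fix hM hm' hΛ' hmx'
  obtain ⟨p, hp⟩ := (hT.symp₁.nondegenerate a ha).2
  set p' := (f₁ a p)⁻¹ • p
  have hap : f₁ a p' = 1 := by rw [hT.symp₁.bilinear.smul_right, inv_mul_cancel₀ hp]
  let A : (Fin 3 → F) →ₗ[F] (ι → F) :=
    ((apEquiv m).toLinearMap - LinearMap.id).comp Λ' -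
      ((apEquiv m').toLinearMap - LinearMap.id).comp Λ
  let D : (Fin 3 → F) →ₗ[F] (Fin 3 → F) := (hT.dd p').comp A
  have hA : ∀ c, A c = (ap m (Λ' c) - Λ' c) - (ap m' (Λ c) - Λ c) := fun c => rfl
  have r1 := fun c => hT.rad_perp hM hm hΛ hmx (hΛ' c)
  have r2 := fun c => hT.rad_perp hM hm' hΛ' hmx' (hΛ c)
  have hAD : ∀ c, A c = pt e P a (D c) := by
    intro c
    obtain ⟨w, hw⟩ : A c ∈ LinearMap.range (ptr e P a) := by
      rw [hA]; exact Submodule.sub_mem _ (r1 c).1 (r2 c).1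
    rw [ptr_apply] at hw
    show A c = pt e P a (hT.dd p' (A c))
    rw [← hw, dd_pt, hap, one_smul]
  have hform : ∀ c c', f₂ (D c) c' = f (Λ' c) (Λ c') - f (Λ c) (Λ' c') := by
    intro c c'
    have h1 : f (A c) (pt e P p' c') = f₂ (D c) c' := by
      rw [hAD, hT.form, hap, one_mul]
    have hc : hT.dd a (pt e P p' c') = -c' := by
      rw [dd_pt, hT.symp₁.skew, hap, neg_one_smul]
    rw [← h1, hA, Symp.sub_left hT.symp, (r1 c).2, (r2 c).2, hc, map_neg, map_neg,
      Symp.neg_right hT.symp, Symp.neg_right hT.symp]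
    ring
  have hMm := M.mul_mem hm hm'
  have hMm' := M.mul_mem hm' hm
  obtain ⟨σ, hσ⟩ := hT.cen_scalar hM ha (S := D)
    ⟨(m * m') * (m' * m)⁻¹, M.mul_mem hMm (M.inv_mem hMm'), fun x => by
      obtain ⟨y, rfl⟩ : ∃ y, ap (m' * m) y = x := ⟨ap (m' * m)⁻¹ x, ap_ap_inv _ x⟩
      have hcy : hT.dd a (ap (m' * m) y) = hT.dd a y := by rw [ap_mul, hd2, hd1]
      rw [hcy, ap_mul (g := m * m'), ap_inv_ap, ← hAD, hA, ap_mul, ap_mul]
      obtain ⟨w, hw⟩ := hmx y
      obtain ⟨w', hw'⟩ := hmx' y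
      rw [ptr_apply] at hw hw'
      have hy1 : ap m y = y + Λ (hT.dd a y) + pt e P a w := by rw [hw]; abel
      have hy2 : ap m' y = y + Λ' (hT.dd a y) + pt e P a w' := by rw [hw']; abel
      conv_lhs => rw [hy2]
      conv_rhs => rw [hy1]
      rw [ap_add, ap_add, ap_add, ap_add, hy1, hy2, hf1, hf2]
      abel⟩
  exact ⟨σ, fun y y' => by rw [← hform, hσ, hT.symm₂.bilinear.smul_left]⟩

omit ha in
lemma rad_sub {Λ Λ' : (Fin 3 → F) →ₗ[F] (ι → F)} (hΛ : ∀ c, hT.dd a (Λ c) = 0)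
    (hΛ' : ∀ c, hT.dd a (Λ' c) = 0) (h : hT.Rad M a Λ) (h' : hT.Rad M a Λ') :
    hT.Rad M a (Λ - Λ') := by
  obtain ⟨m, hm, hmx⟩ := h
  obtain ⟨m', hm', hmx'⟩ := h'
  refine ⟨m * m'⁻¹, mul_mem hm (inv_mem hm'), fun x => ?_⟩
  obtain ⟨y, rfl⟩ : ∃ y, ap m' y = x := ⟨ap m'⁻¹ x, ap_ap_inv _ x⟩
  rw [(hT.rad_fix hM hm' hΛ' hmx').2, ap_mul, ap_inv_ap, LinearMap.sub_apply]
  convert Submodule.sub_mem _ (hmx y) (hmx' y) using 1
  abel

omit ha in
lemma rad_conj {Λ : (Fin 3 → F) →ₗ[F] (ι → F)} (h : hT.Rad M a Λ) {g : GL (Fin n) F}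
    (hg : g ∈ isom f₁) (hga : ap g a = a) :
    hT.Rad M a ((apEquiv (kron e P g (1 : GL (Fin 3) F))).toLinearMap.comp Λ) := by
  set K := kron e P g (1 : GL (Fin 3) F)
  have hK : K ∈ M := hT.kron_mem_M hM hg (one_mem _)
  obtain ⟨m, hm, hmx⟩ := h
  refine ⟨K * m * K⁻¹, mul_mem (mul_mem hK hm) (inv_mem hK), fun x => ?_⟩
  have hc : hT.dd a (ap K⁻¹ x) = hT.dd a x := hT.ext₂ fun y => by
    rw [← hT.f_pt', ← mem_isom_iff.mp (hM.le_isom hK), ap_ap_inv, ap_kron, hga, ap_one, hT.f_pt']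
  obtain ⟨w, hw⟩ := hmx (ap K⁻¹ x)
  refine ⟨w, ?_⟩
  rw [ptr_apply] at hw
  have := congrArg (ap K) hw
  rw [ap_kron, hga, ap_one, ap_sub, ap_sub, ap_ap_inv, hc] at this
  rw [ptr_apply, this, ap_mul, ap_mul]
  rfl

/-- The radical element of the first factor. -/
lemma rad_ptr {d : Fin n → F} (hd : f₁ d a = 0) :
    ∃ k ∈ Cfsg.Geo.tensorProductSubgroup n 3 e P ⊓ isom f,
      ∀ x, ap k x = x + pt e P d (hT.dd a x) + pt e P a (hT.dd d x) := by
  have had : f₁ a d = 0 := (Symp.eq_zero_comm hT.symp₁).mp hd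
  refine ⟨_, hT.kron_mem_H (b := (1 : GL (Fin 3) F)) (mul_mem (mul_mem
    (Symp.T_mem_isom hT.symp₁ (d + a) 1) (Symp.T_mem_isom hT.symp₁ d (-1)))
    (Symp.T_mem_isom hT.symp₁ a (-1))) (one_mem _), fun x => ?_⟩
  rw [show kron e P (Symp.T hT.symp₁ (d + a) 1 * Symp.T hT.symp₁ d (-1) *
      Symp.T hT.symp₁ a (-1)) (1 : GL (Fin 3) F) = kron e P (Symp.T hT.symp₁ (d + a) 1) 1 *
      kron e P (Symp.T hT.symp₁ d (-1)) 1 * kron e P (Symp.T hT.symp₁ a (-1)) 1 by
    rw [kron_mul, kron_mul, one_mul, one_mul], ap_mul, ap_mul, hT.ap_kron_T, hT.ap_kron_T,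
    hT.ap_kron_T, hT.dd_add]
  simp only [LinearMap.add_apply, map_add, map_smul, dd_pt, hd, had, hT.symp₁.alternating,
    zero_smul, smul_zero, add_zero, pt_add_left, pt_add_right]
  module

/-- The linear part of a radical element is factorwise. -/
theorem scalar_of_rad {Λ : (Fin 3 → F) →ₗ[F] (ι → F)} (hΛ : ∀ c, hT.dd a (Λ c) = 0)
    (h : hT.Rad M a Λ) {d : Fin n → F} (hd : f₁ d a = 0) :
    ∃ α : F, ∀ y, hT.dd d (Λ y) = α • y := by
  by_cases hda : d ∈ Submodule.span F {a}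
  · obtain ⟨c, rfl⟩ := Submodule.mem_span_singleton.mp hda
    exact ⟨0, fun y => by rw [hT.dd_smul, LinearMap.smul_apply, hΛ, smul_zero, zero_smul]⟩
  obtain ⟨z, hz, hdz⟩ := Symp.exists_perp_ne hT.symp₁ hda
  rw [Symp.mem_perp_span] at hz
  have had : f₁ a d = 0 := (Symp.eq_zero_comm hT.symp₁).mp hd
  have haz : f₁ a z = 0 := (Symp.eq_zero_comm hT.symp₁).mp hz
  let A : (Fin 3 → F) →ₗ[F] (Fin 3 → F) := (hT.dd d).comp Λ
  have hAap : ∀ y, hT.dd d (Λ y) = A y := fun y => rfl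
  obtain ⟨k, hk, hkx⟩ := hT.rad_ptr hM ha hd
  have hptr : ∀ c, hT.dd a (ptr e P d c) = 0 := fun c => by rw [ptr_apply, dd_pt, hd, zero_smul]
  have hRd : hT.Rad M a (ptr e P d) := ⟨k, hM.le hk, fun x => ⟨hT.dd d x, by
    rw [hkx, ptr_apply, ptr_apply]; abel⟩⟩
  obtain ⟨σ, hσ⟩ := hT.pair_of_rad hM ha hΛ hptr h hRd
  have hsym : ∀ y y', f₂ (A y) y' + f₂ y (A y') = 2 * (-σ / 2) * f₂ y y' := by
    intro y y'
    have h1 := hσ y y'
    rw [ptr_apply, ptr_apply, hT.symp.skew (pt e P d y), hT.f_pt', hT.f_pt', hAap, hAap] at h1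
    have := hT.two
    rw [hT.symm₂.symm y (A y')]
    field_simp
    linear_combination -h1
  -- a pure linear part
  have h1 := hT.rad_conj hM h (Symp.T_mem_isom hT.symp₁ d 1) (Symp.ap_T_fix hT.symp₁ 1 had)
  have hK1 : ∀ c, hT.dd a (((apEquiv (kron e P (Symp.T hT.symp₁ d 1) (1 : GL (Fin 3) F))).toLinearMap.comp
      Λ) c) = 0 := fun c => by
    rw [LinearMap.comp_apply, LinearEquiv.coe_coe, apEquiv_apply, hT.ap_kron_T, one_smul, map_add,
      hΛ, dd_pt, hd, zero_smul, add_zero]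
  have hpure : hT.Rad M a ((ptr e P d).comp A) := by
    convert hT.rad_sub hM hK1 hΛ h1 h using 1
    refine LinearMap.ext fun y => ?_
    simp [hT.ap_kron_T, A]
  have hpure0 : ∀ c, hT.dd a (((ptr e P d).comp A) c) = 0 := fun c => hptr _
  have h2 := hT.rad_conj hM hpure (Symp.T_mem_isom hT.symp₁ z 1) (Symp.ap_T_fix hT.symp₁ 1 haz)
  have hK2 : ∀ c, hT.dd a (((apEquiv (kron e P (Symp.T hT.symp₁ z 1) (1 : GL (Fin 3) F))).toLinearMap.comp
      ((ptr e P d).comp A)) c) = 0 := fun c => by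
    rw [LinearMap.comp_apply, LinearEquiv.coe_coe, apEquiv_apply, hT.ap_kron_T, one_smul, map_add,
      hpure0, dd_pt, hz, zero_smul, add_zero]
  obtain ⟨σ', hσ'⟩ := hT.pair_of_rad hM ha hpure0 hK2 hpure h2
  have hnorm : ∀ y y', f₂ (A y) (A y') = (-σ' / (2 * (f₁ d z * f₁ d z))) * f₂ y y' := by
    intro y y'
    have h1 := hσ' y y'
    simp only [LinearMap.comp_apply, LinearEquiv.coe_coe, apEquiv_apply, ptr_apply, ap_kron, ap_one,
      Symp.ap_T, hT.form, hT.symp₁.bilinear.add_left, hT.symp₁.bilinear.add_right,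
      hT.symp₁.bilinear.smul_left, hT.symp₁.bilinear.smul_right, hT.symp₁.alternating,
      hT.symp₁.skew z d] at h1
    have := hT.two
    field_simp
    linear_combination -h1
  refine ⟨-σ / 2, fun y => sub_eq_zero.mp ?_⟩
  refine hT.skew_zero (K := A - (-σ / 2) • LinearMap.id) ?_
    (κ := -σ' / (2 * (f₁ d z * f₁ d z)) - (-σ / 2) * (-σ / 2)) ?_ y
  · intro y y'
    simp only [LinearMap.sub_apply, LinearMap.smul_apply, LinearMap.id_apply, hT.sub_left₂,
      hT.sub_right₂, hT.symm₂.bilinear.smul_left, hT.symm₂.bilinear.smul_right]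
    linear_combination hsym y y'
  · intro y y'
    simp only [LinearMap.sub_apply, LinearMap.smul_apply, LinearMap.id_apply, hT.sub_left₂,
      hT.sub_right₂, hT.symm₂.bilinear.smul_left, hT.symm₂.bilinear.smul_right]
    linear_combination hnorm y y' - (-σ / 2) * hsym y y'

end CfsgLib.Geometric.SympThree.Data
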